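import Mathlib
import Cfsg.Agent.GeoLib.SpGL
import Cfsg.Agent.GeoLib.Subfield

/-!
Rational symplectic maps and products of symplectic transvections.
-/

set_option autoImplicit false

namespace CfsgLib.SubMaxSp

open Matrix CfsgLib.SpGeom CfsgLib.GeoSp

variable {F : Type*} [Field F] {m : ℕ}

/-- All coordinates lie in the subfield. -/
def Rt (F₀ : Subfield F) (x : Fin m ⊕ Fin m → F) : Prop := ∀ k, x k ∈ F₀

/-- The matrix carries rational vectors to rational ones. -/
def IsR (F₀ : Subfield F) (g : GL (Fin m ⊕ Fin m) F) : Prop :=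
  ∀ x, Rt F₀ x → Rt F₀ ((g : Matrix (Fin m ⊕ Fin m) (Fin m ⊕ Fin m) F) *ᵥ x)

/-- `x ↦ x + a (f(x,v) u + f(x,u) v)` for orthogonal `u`, `v`. -/
def eg (u v : Fin m ⊕ Fin m → F) (a : F) : GL (Fin m ⊕ Fin m) F :=
  tvGL (u + v) a * tvGL u (-a) * tvGL v (-a)

variable {F₀ : Subfield F}

local notation "V" => (Fin m ⊕ Fin m → F)
local notation "G" => GL (Fin m ⊕ Fin m) F
local notation "f" => Cfsg.sympForm m F
local notation:max "↟" g:max => ((g : GL (Fin m ⊕ Fin m) F) : Matrix (Fin m ⊕ Fin m) (Fin m ⊕ Fin m) F)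

theorem rt_single (k : Fin m ⊕ Fin m) : Rt F₀ (Pi.single k (1 : F)) := fun j => by
  rcases eq_or_ne j k with rfl | h <;> simp [*, one_mem, zero_mem]

theorem rt_smul {c : F} (hc : c ∈ F₀) {x : V} (hx : Rt F₀ x) : Rt F₀ (c • x) := fun j => mul_mem hc (hx j)

theorem rt_sub {x y : V} (hx : Rt F₀ x) (hy : Rt F₀ y) : Rt F₀ (x - y) := fun j => sub_mem (hx j) (hy j)

theorem rt_add {x y : V} (hx : Rt F₀ x) (hy : Rt F₀ y) : Rt F₀ (x + y) := fun j => add_mem (hx j) (hy j)

theorem rt_form {x y : V} (hx : Rt F₀ x) (hy : Rt F₀ y) : f x y ∈ F₀ := by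
  rw [form_def]
  exact Subfield.sum_mem _ fun i _ => sub_mem (mul_mem (hx _) (hy _)) (mul_mem (hx _) (hy _))

theorem eg_mem_spGL (u v : V) (a : F) : eg u v a ∈ Cfsg.spGL m F :=
  mul_mem (mul_mem (tvGL_mem _ _) (tvGL_mem _ _)) (tvGL_mem _ _)

theorem eg_mulVec {u v : V} (h : f u v = 0) (a : F) (x : V) :
    ↟(eg u v a) *ᵥ x = x + a • (f x v • u + f x u • v) := by
  have h' : f v u = 0 := by rw [form_skew, h, neg_zero]
  simp only [eg, Units.val_mul, ← mulVec_mulVec, tvGL_mulVec, form_add_left, form_smul_left,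
    form_add_right, form_self, h, h']
  module

theorem tv_eq_of_add {u v : V} (h : f u v = 0) (c : F) :
    tvGL (u + v) c = eg u v c * tvGL u c * tvGL v c := by
  refine GeoFull.gl_ext fun x => ?_
  have h' : f v u = 0 := by rw [form_skew, h, neg_zero]
  simp only [Units.val_mul, ← mulVec_mulVec, tvGL_mulVec, eg_mulVec h, form_add_left, form_smul_left,
    form_add_right, form_self, h, h']
  module

theorem eg_mul {u v : V} (h : f u v = 0) (a b : F) : eg u v a * eg u v b = eg u v (a + b) := by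
  refine GeoFull.gl_ext fun x => ?_
  have h' : f v u = 0 := by rw [form_skew, h, neg_zero]
  simp only [Units.val_mul, ← mulVec_mulVec, eg_mulVec h, form_add_left, form_smul_left, form_self, h, h']
  module

theorem eg_smul {u v : V} (h : f u v = 0) (a b : F) : eg (b • u) v a = eg u v (a * b) := by
  refine GeoFull.gl_ext fun x => ?_
  rw [eg_mulVec (by rw [form_smul_left, h, mul_zero]), eg_mulVec h, form_smul_right]
  module

theorem eg_smul_right {u v : V} (h : f u v = 0) (a b : F) : eg u (b • v) a = eg u v (a * b) := by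
  refine GeoFull.gl_ext fun x => ?_
  rw [eg_mulVec (by rw [form_smul_right, h, mul_zero]), eg_mulVec h, form_smul_right]
  module

theorem eg_zero {u v : V} (h : f u v = 0) : eg u v (0 : F) = 1 := GeoFull.gl_ext fun x => by
  rw [eg_mulVec h]; simp

theorem eg_inv {u v : V} (h : f u v = 0) (a : F) : (eg u v a)⁻¹ = eg u v (-a) :=
  inv_eq_of_mul_eq_one_right (by rw [eg_mul h, add_neg_cancel, eg_zero h])

/-- Splitting of the second argument. -/
theorem eg_add_right {u v w : V} (hv : f u v = 0) (hw : f u w = 0) (hvw : f v w = 0) (a : F) :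
    eg u (v + w) a = eg u v a * eg u w a := by
  refine GeoFull.gl_ext fun x => ?_
  have h' : f v u = 0 := by rw [form_skew, hv, neg_zero]
  have h'' : f w u = 0 := by rw [form_skew, hw, neg_zero]
  have hwv : f w v = 0 := by rw [form_skew, hvw, neg_zero]
  simp only [Units.val_mul, ← mulVec_mulVec, eg_mulVec hv, eg_mulVec hw,
    eg_mulVec (show f u (v + w) = 0 by rw [form_add_right, hv, hw, add_zero]),
    form_add_left, form_add_right, form_smul_left, form_self, hv, h'', hwv]
  module

/-- The product of two root elements with common first argument. -/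
theorem eg_mul_eg {u v w : V} (hv : f u v = 0) (hw : f u w = 0) (a : F) :
    eg u v a * eg u w a = eg u (v + w) a * tvGL u (a * a * f w v) := by
  refine GeoFull.gl_ext fun x => ?_
  have h' : f v u = 0 := by rw [form_skew, hv, neg_zero]
  have h'' : f w u = 0 := by rw [form_skew, hw, neg_zero]
  simp only [Units.val_mul, ← mulVec_mulVec, eg_mulVec hv, eg_mulVec hw, tvGL_mulVec,
    eg_mulVec (show f u (v + w) = 0 by rw [form_add_right, hv, hw, add_zero]),
    form_add_left, form_add_right, form_smul_left, form_self, hv, hw, h', h'']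
  module

theorem eg_conj {g : G} (hg : g ∈ Cfsg.spGL m F) (u v : V) (a : F) :
    g * eg u v a * g⁻¹ = eg (↟g *ᵥ u) (↟g *ᵥ v) a := by
  unfold eg
  rw [← mulVec_add, ← tvGL_conj hg, ← tvGL_conj hg, ← tvGL_conj hg]
  group

theorem isR_tv {z : V} (hz : Rt F₀ z) {c : F} (hc : c ∈ F₀) : IsR F₀ (tvGL z c) := fun x hx => by
  rw [tvGL_mulVec]; exact rt_add hx (rt_smul (mul_mem hc (rt_form hx hz)) hz)

theorem isR_mul {g h : G} (hg : IsR F₀ g) (hh : IsR F₀ h) : IsR F₀ (g * h) := fun x hx => by
  rw [Units.val_mul, ← mulVec_mulVec]; exact hg _ (hh x hx)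

theorem isR_inv [Fintype F] {g : G} (hg : IsR F₀ g) : IsR F₀ g⁻¹ := by
  have e : g⁻¹ = g ^ (orderOf g - 1) := by
    rw [inv_eq_iff_mul_eq_one, ← pow_succ', Nat.sub_add_cancel (orderOf_pos g), pow_orderOf_eq_one]
  rw [e]
  generalize orderOf g - 1 = k
  induction k with
  | zero => intro x hx; simpa using hx
  | succ k ih => rw [pow_succ]; exact isR_mul ih hg

/-- The rational symplectic maps lie in the subfield group of `1`. -/
theorem isR_mem_subfield {g : G} (hg : IsR F₀ g) : g ∈ Cfsg.Geo.subfieldSubgroup F₀ (1 : G) := by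
  refine GeoSubfield.mem_subfield (one_ne_zero (α := F)) fun k j => ?_
  have h := hg _ (rt_single k) j
  rw [inv_one, Units.val_one, one_mulVec, one_mulVec, one_smul]
  exact h

end CfsgLib.SubMaxSp
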