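import Mathlib
import Cfsg.Agent.SubMaxSp.Basic

/-!
The coefficients of the root groups of a group containing the rational symplectic maps.
-/

set_option autoImplicit false

namespace CfsgLib.SubMaxSp

open Matrix CfsgLib.SpGeom CfsgLib.GeoSp

variable {F : Type*} [Field F] {m : ℕ}

/-- `H` lies in the symplectic group and contains the rational symplectic maps. -/
structure Setting (H : Subgroup (GL (Fin m ⊕ Fin m) F)) (F₀ : Subfield F) : Prop where
  big : 3 ≤ m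
  rat : ∀ g ∈ Cfsg.spGL m F, IsR F₀ g → g ∈ H
  le : H ≤ Cfsg.spGL m F

/-- The coefficient occurs in every rational long-short root group of `H`. -/
def MemA (H : Subgroup (GL (Fin m ⊕ Fin m) F)) (F₀ : Subfield F) (a : F) : Prop :=
  ∀ u v : Fin m ⊕ Fin m → F, Rt F₀ u → Rt F₀ v → u ≠ 0 → Cfsg.sympForm m F u v = 0 →
    (∀ β : F, v ≠ β • u) → eg u v a ∈ H

variable {H : Subgroup (GL (Fin m ⊕ Fin m) F)} {F₀ : Subfield F}

local notation "V" => (Fin m ⊕ Fin m → F)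
local notation "G" => GL (Fin m ⊕ Fin m) F
local notation "f" => Cfsg.sympForm m F
local notation:max "↟" g:max => ((g : GL (Fin m ⊕ Fin m) F) : Matrix (Fin m ⊕ Fin m) (Fin m ⊕ Fin m) F)
local notation:max "𝖾" i:max => (Pi.single (Sum.inl i) (1 : F) : Fin m ⊕ Fin m → F)
local notation:max "𝖿" i:max => (Pi.single (Sum.inr i) (1 : F) : Fin m ⊕ Fin m → F)

theorem form_ee (i j : Fin m) : f 𝖾i 𝖾j = 0 := by simp [form_single_inl_right]

theorem form_ef (i j : Fin m) : f 𝖾i 𝖿j = if i = j then -1 else 0 := by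
  rw [form_single_inr_right]
  rcases eq_or_ne i j with rfl | h <;> simp [*, Ne.symm]

theorem form_fe (i j : Fin m) : f 𝖿i 𝖾j = if i = j then 1 else 0 := by
  rw [form_single_inl_right]
  rcases eq_or_ne i j with rfl | h <;> simp [*, Ne.symm]

theorem ne_smul_e {i j : Fin m} (h : j ≠ i) (β : F) : 𝖾j ≠ β • 𝖾i := fun e => by
  simpa [h, Ne.symm h] using congrFun e (Sum.inl j)

/-- A rational functional detecting one coordinate. -/
theorem exists_detect (k : Fin m ⊕ Fin m) : ∃ z : V, Rt F₀ z ∧ (∀ y, f y z = 0 ↔ y k = 0) ∧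
    z = Pi.single k.swap 1 := by
  rcases k with i | i
  · exact ⟨_, rt_single _, fun y => by simp [form_single_inr_right], rfl⟩
  · exact ⟨_, rt_single _, fun y => by simp [form_single_inl_right], rfl⟩

theorem exists_between {P : V → Prop} (hadd : ∀ x y, P x → P y → P (x + y)) {p q : V}
    (h1 : ∃ z, P z ∧ f p z ≠ 0) (h2 : ∃ z, P z ∧ f q z ≠ 0) : ∃ z, P z ∧ f p z ≠ 0 ∧ f z q ≠ 0 := by
  obtain ⟨z₁, hz₁, e₁⟩ := h1
  obtain ⟨z₂, hz₂, e₂⟩ := h2
  by_cases a : f q z₁ = 0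
  · by_cases b : f p z₂ = 0
    · refine ⟨z₁ + z₂, hadd _ _ hz₁ hz₂, ?_, ?_⟩
      · rwa [form_add_right, b, add_zero]
      · rw [form_skew, form_add_right, a, zero_add]; exact neg_ne_zero.2 e₂
    · exact ⟨z₂, hz₂, b, by rw [form_skew]; exact neg_ne_zero.2 e₂⟩
  · exact ⟨z₁, hz₁, e₁, by rw [form_skew]; exact neg_ne_zero.2 a⟩

theorem move_direct {u v : V} (hu : Rt F₀ u) (hv : Rt F₀ v) (h : f u v ≠ 0) :
    ∃ g ∈ Cfsg.spGL m F, IsR F₀ g ∧ ↟g *ᵥ u = v ∧ ∀ x, f x u = f x v → ↟g *ᵥ x = x := by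
  refine ⟨tvGL (u - v) (f u v)⁻¹, tvGL_mem _ _, isR_tv (rt_sub hu hv) (inv_mem (rt_form hu hv)), ?_, ?_⟩
  · rw [tvGL_mulVec, form_sub_right, form_self, zero_sub, mul_neg, inv_mul_cancel₀ h]
    module
  · intro x hx
    rw [tvGL_mulVec, form_sub_right, hx, sub_self, mul_zero, zero_smul, add_zero]

theorem exists_move {u v : V} (hu : Rt F₀ u) (hv : Rt F₀ v) (hu0 : u ≠ 0) (hv0 : v ≠ 0) :
    ∃ g ∈ Cfsg.spGL m F, IsR F₀ g ∧ ↟g *ᵥ u = v := by
  have hd : ∀ {x : V}, x ≠ 0 → ∃ z, Rt F₀ z ∧ f x z ≠ 0 := fun {x} hx => by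
    obtain ⟨k, hk⟩ := Function.ne_iff.1 hx
    obtain ⟨z, hz, hz', -⟩ := exists_detect (F₀ := F₀) k
    exact ⟨z, hz, fun h => hk ((hz' x).1 h)⟩
  obtain ⟨z, hz, h1, h2⟩ := exists_between (fun x y => rt_add) (hd hu0) (hd hv0)
  obtain ⟨g₁, hg₁, r₁, e₁, -⟩ := move_direct hu hz h1
  obtain ⟨g₂, hg₂, r₂, e₂, -⟩ := move_direct hz hv h2
  exact ⟨g₂ * g₁, mul_mem hg₂ hg₁, isR_mul r₂ r₁, by rw [Units.val_mul, ← mulVec_mulVec, e₁, e₂]⟩

theorem exists_move_fix (i : Fin m) {p q : V} (hp : Rt F₀ p) (hq : Rt F₀ q) (hpe : f p 𝖾i = 0) (hqe : f q 𝖾i = 0)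
    (hp' : ∀ β : F, p ≠ β • 𝖾i) (hq' : ∀ β : F, q ≠ β • 𝖾i) :
    ∃ g ∈ Cfsg.spGL m F, IsR F₀ g ∧ ↟g *ᵥ 𝖾i = 𝖾i ∧ ↟g *ᵥ p = q := by
  have hd : ∀ {x : V}, f x 𝖾i = 0 → (∀ β : F, x ≠ β • 𝖾i) → ∃ z, (Rt F₀ z ∧ f z 𝖾i = 0) ∧ f x z ≠ 0 := by
    intro x hx hx'
    obtain ⟨k, hk⟩ : ∃ k, k ≠ Sum.inl i ∧ x k ≠ 0 := by
      by_contra hall
      push Not at hall
      refine hx' (x (.inl i)) (funext fun k => ?_)
      rcases eq_or_ne k (Sum.inl i) with rfl | hk
      · simp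
      · simp [hk, hall k hk]
    rw [form_single_inl_right] at hx
    obtain ⟨z, hz, hz', rfl⟩ := exists_detect (F₀ := F₀) k
    refine ⟨_, ⟨hz, ?_⟩, fun h => hk.2 ((hz' x).1 h)⟩
    rw [form_single_inl_right]
    rcases k with j | j
    · have : j ≠ i := fun h => hk.1 (h ▸ rfl)
      simp [this.symm]
    · simp
  obtain ⟨z, ⟨hz, hze⟩, h1, h2⟩ := exists_between
    (P := fun z => Rt F₀ z ∧ f z 𝖾i = 0)
    (fun x y hx hy => ⟨rt_add hx.1 hy.1, by rw [form_add_left, hx.2, hy.2, add_zero]⟩) (hd hpe hp') (hd hqe hq')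
  obtain ⟨g₁, hg₁, r₁, e₁, fx₁⟩ := move_direct hp hz h1
  obtain ⟨g₂, hg₂, r₂, e₂, fx₂⟩ := move_direct hz hq h2
  have hs : ∀ {x : V}, f x 𝖾i = 0 → f 𝖾i x = 0 := fun {x} h => by rw [form_skew, h, neg_zero]
  refine ⟨g₂ * g₁, mul_mem hg₂ hg₁, isR_mul r₂ r₁, ?_, by rw [Units.val_mul, ← mulVec_mulVec, e₁, e₂]⟩
  rw [Units.val_mul, ← mulVec_mulVec, fx₁ _ (by rw [hs hpe, hs hze]), fx₂ _ (by rw [hs hze, hs hqe])]

theorem exists_to_std [Fintype F] {u v : V} (hu : Rt F₀ u) (hv : Rt F₀ v) (hu0 : u ≠ 0) (huv : f u v = 0)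
    (hind : ∀ β : F, v ≠ β • u) {i j : Fin m} (hij : j ≠ i) :
    ∃ g ∈ Cfsg.spGL m F, IsR F₀ g ∧ ↟g *ᵥ u = 𝖾i ∧ ↟g *ᵥ v = 𝖾j := by
  obtain ⟨g₁, hg₁, r₁, e₁⟩ := exists_move hu (rt_single (.inl i)) hu0 (by simp)
  obtain ⟨g₂, hg₂, r₂, e₂, e₃⟩ := exists_move_fix i (r₁ v hv) (rt_single (.inl j))
    (by rw [← e₁, mem_spGL.1 hg₁, form_skew, huv, neg_zero]) (form_ee j i)
    (fun β h => hind β (by
      rw [← GeoFull.inv_mulVec_cancel g₁ v, h, mulVec_smul, ← e₁, GeoFull.inv_mulVec_cancel]))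
    (ne_smul_e hij)
  exact ⟨g₂ * g₁, mul_mem hg₂ hg₁, isR_mul r₂ r₁, by rw [Units.val_mul, ← mulVec_mulVec, e₁, e₂],
    by rw [Units.val_mul, ← mulVec_mulVec, e₃]⟩

variable (S : Setting H F₀)
include S

theorem conj_mem {k x : G} (hk : k ∈ Cfsg.spGL m F) (hkR : IsR F₀ k) (hx : x ∈ H) : k * x * k⁻¹ ∈ H :=
  mul_mem (mul_mem (S.rat k hk hkR) hx) (inv_mem (S.rat k hk hkR))

theorem tv_mem {z : V} (hz : Rt F₀ z) {c : F} (hc : c ∈ F₀) : tvGL z c ∈ H :=
  S.rat _ (tvGL_mem z c) (isR_tv hz hc)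

theorem exists_three (i : Fin m) : ∃ j l : Fin m, j ≠ i ∧ l ≠ i ∧ l ≠ j := by
  have hc : Fintype.card (Fin m) = m := Fintype.card_fin m
  have : 1 < Fintype.card (Fin m) := by rw [hc]; linarith [S.big]
  obtain ⟨j, hj⟩ := Fintype.exists_ne_of_one_lt_card this i
  have hlt : ({i, j} : Finset (Fin m)).card < (Finset.univ : Finset (Fin m)).card := by
    have := Finset.card_le_two (a := i) (b := j)
    have := S.big
    simp only [Finset.card_univ, hc]; omega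
  obtain ⟨l, -, hl⟩ := Finset.exists_mem_notMem_of_card_lt_card hlt
  simp only [Finset.mem_insert, Finset.mem_singleton, not_or] at hl
  exact ⟨j, l, hj, hl.1, hl.2⟩

/-- One element of the shape `eg · tv` gives the whole family. -/
theorem memA_of [Fintype F] (i : Fin m) {z : V} (hz : Rt F₀ z) (hze : f z 𝖾i = 0) (hz' : ∀ β : F, z ≠ β • 𝖾i)
    {a c : F} (h : eg 𝖾i z a * tvGL 𝖾i c ∈ H) : MemA H F₀ a := by
  obtain ⟨j, l, hji, hli, hlj⟩ := exists_three S i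
  obtain ⟨k₁, hk₁, r₁, a₁, b₁⟩ := exists_move_fix i hz (rt_single (.inl j)) hze (form_ee j i) hz' (ne_smul_e hji)
  have h₁ : eg 𝖾i 𝖾j a * tvGL 𝖾i c ∈ H := by
    have := conj_mem S hk₁ r₁ h
    rwa [show k₁ * (eg 𝖾i z a * tvGL 𝖾i c) * k₁⁻¹ = (k₁ * eg 𝖾i z a * k₁⁻¹) * (k₁ * tvGL 𝖾i c * k₁⁻¹) by group,
      eg_conj hk₁, tvGL_conj hk₁, a₁, b₁] at this
  obtain ⟨k₂, hk₂, r₂, a₂, b₂⟩ := exists_move_fix i (q := 𝖾l + 𝖾j) (rt_single (.inl j))
    (rt_add (rt_single (.inl l)) (rt_single (.inl j))) (form_ee j i)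
    (by rw [form_add_left, form_ee, form_ee, add_zero]) (ne_smul_e hji)
    (fun β e => by simpa [hli, hlj] using congrFun e (Sum.inl l))
  have h₂ : eg 𝖾i 𝖾l a ∈ H := by
    have h3 := conj_mem S hk₂ r₂ h₁
    rw [show k₂ * (eg 𝖾i 𝖾j a * tvGL 𝖾i c) * k₂⁻¹ = (k₂ * eg 𝖾i 𝖾j a * k₂⁻¹) * (k₂ * tvGL 𝖾i c * k₂⁻¹) by group,
      eg_conj hk₂, tvGL_conj hk₂, a₂, b₂, eg_add_right (form_ee i l) (form_ee i j) (form_ee l j), mul_assoc] at h3
    exact (Subgroup.mul_mem_cancel_right H h₁).1 h3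
  intro u v hu hv hu0 huv hind
  obtain ⟨g, hg, gR, gu, gv⟩ := exists_to_std hu hv hu0 huv hind hli
  have := conj_mem S (inv_mem hg) (isR_inv gR) h₂
  rwa [eg_conj (inv_mem hg), ← gu, ← gv, GeoFull.inv_mulVec_cancel, GeoFull.inv_mulVec_cancel] at this

theorem memA_of_eg [Fintype F] {i j : Fin m} (hij : j ≠ i) {a : F} (h : eg 𝖾i 𝖾j a ∈ H) : MemA H F₀ a :=
  memA_of S i (c := 0) (rt_single (.inl j)) (form_ee j i) (ne_smul_e hij) (by rwa [tvGL_zero, mul_one])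

/-- The coefficients of the rational transvections occur in the root groups. -/
theorem memA_of_tv [Fintype F] {u : V} (hu : Rt F₀ u) (hu0 : u ≠ 0) {c : F} (h : tvGL u c ∈ H) : MemA H F₀ c := by
  have hall : ∀ w, Rt F₀ w → w ≠ 0 → tvGL w c ∈ H := fun w hw hw0 => by
    obtain ⟨g, hg, gR, e⟩ := exists_move hu hw hu0 hw0
    have := conj_mem S hg gR h
    rwa [tvGL_conj hg, e] at this
  obtain ⟨j, l, hji, -, -⟩ := exists_three S (⟨0, by linarith [S.big]⟩ : Fin m)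
  set i : Fin m := ⟨0, by linarith [S.big]⟩
  have hne : 𝖾i + 𝖾j ≠ 0 := fun e => by simpa [hji] using congrFun e (Sum.inl j)
  have h1 := hall _ (rt_add (rt_single (.inl i)) (rt_single (.inl j))) hne
  rw [tv_eq_of_add (form_ee i j), mul_assoc] at h1
  exact memA_of_eg S hji ((Subgroup.mul_mem_cancel_right H
    (mul_mem (hall _ (rt_single _) (by simp)) (hall _ (rt_single _) (by simp)))).1 h1)

/-- The coefficients form a ring containing the subfield. -/
theorem exists_ring [Fintype F] : ∃ A : Subring F, (∀ a, a ∈ A ↔ MemA H F₀ a) ∧ ∀ a ∈ F₀, a ∈ A := by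
  have h0 : ∀ a ∈ F₀, MemA H F₀ a := fun a ha u v hu hv _ _ _ =>
    mul_mem (mul_mem (tv_mem S (rt_add hu hv) ha) (tv_mem S hu (neg_mem ha))) (tv_mem S hv (neg_mem ha))
  refine ⟨{ carrier := {a | MemA H F₀ a}
            one_mem' := h0 1 (one_mem _)
            zero_mem' := h0 0 (zero_mem _)
            add_mem' := fun {a b} ha hb u v hu hv hu0 huv hind => by
              rw [← eg_mul huv]; exact mul_mem (ha u v hu hv hu0 huv hind) (hb u v hu hv hu0 huv hind)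
            neg_mem' := fun {a} ha u v hu hv hu0 huv hind => by
              rw [← eg_inv huv]; exact inv_mem (ha u v hu hv hu0 huv hind)
            mul_mem' := ?_ }, fun a => Iff.rfl, h0⟩
  intro a b ha hb
  set i : Fin m := ⟨0, by linarith [S.big]⟩
  obtain ⟨j, l, hji, hli, hlj⟩ := exists_three S i
  have hk := hb 𝖿j (-𝖾l) (rt_single _) (fun k => neg_mem (rt_single (F₀ := F₀) (Sum.inl l) k)) (by simp)
    (by rw [← neg_one_smul F 𝖾l, form_smul_right, form_fe, if_neg hlj.symm, mul_zero])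
    (fun β e => by simpa using congrFun e (Sum.inl l))
  have hx := ha 𝖾i 𝖾j (rt_single _) (rt_single _) (by simp) (form_ee i j) (ne_smul_e hji)
  have hkx : eg 𝖾i (𝖾j + b • 𝖾l) a ∈ H := by
    have e0 : f 𝖿j (-𝖾l) = 0 := by rw [← neg_one_smul F 𝖾l, form_smul_right, form_fe, if_neg hlj.symm, mul_zero]
    have := mul_mem (mul_mem hk hx) (inv_mem hk)
    rwa [eg_conj (eg_mem_spGL _ _ _), eg_mulVec e0, eg_mulVec e0, ← neg_one_smul F 𝖾l, form_smul_right,
      form_smul_right, form_ee, form_ee, form_ef, form_ef, if_neg hji.symm, if_pos rfl,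
      show (𝖾i + b • ((-1 * (0:F)) • 𝖿j + (0:F) • (-1 : F) • 𝖾l)) = 𝖾i by module,
      show (𝖾j + b • ((-1 * (0:F)) • 𝖿j + (-1:F) • (-1 : F) • 𝖾l)) = 𝖾j + b • 𝖾l by module] at this
  have hbl : f 𝖾i (b • 𝖾l) = 0 := by rw [form_smul_right, form_ee, mul_zero]
  rw [eg_add_right (form_ee i j) hbl (by rw [form_smul_right, form_ee, mul_zero]),
    eg_smul_right (form_ee i l)] at hkx
  exact memA_of_eg S hli ((Subgroup.mul_mem_cancel_left H hx).1 hkx)

/-- All coefficients: everything. -/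
theorem eq_top_case [Fintype F] (hA : ∀ a, MemA H F₀ a) : H = Cfsg.spGL m F := by
  classical
  refine le_antisymm S.le (spGL_le_of_tv H fun v c => ?_)
  set i : Fin m := ⟨0, by linarith [S.big]⟩
  obtain ⟨j, -, hji, -, -⟩ := exists_three S i
  have hone : (1 : F) ∈ F₀ := one_mem _
  have hsq : ∀ a : F, tvGL 𝖾i (a * a) ∈ H := by
    intro a
    have hef : f 𝖾i 𝖿j = 0 := by rw [form_ef, if_neg hji.symm]
    have hk : eg 𝖾i 𝖾j a ∈ H := hA a _ _ (rt_single _) (rt_single _) (by simp) (form_ee i j) (ne_smul_e hji)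
    have := mul_mem (mul_mem hk (tv_mem S (rt_single (.inr j)) hone)) (inv_mem hk)
    rw [tvGL_conj (eg_mem_spGL _ _ _), eg_mulVec (form_ee i j), form_fe, form_fe, if_pos rfl, if_neg hji,
      show 𝖿j + a • ((1:F) • 𝖾i + (0:F) • 𝖾j) = a • 𝖾i + 𝖿j by module,
      tv_eq_of_add (show f (a • 𝖾i) 𝖿j = 0 by rw [form_smul_left, hef, mul_zero]), eg_smul hef, tvGL_smul] at this
    have h2 := (Subgroup.mul_mem_cancel_right H (tv_mem S (rt_single (.inr j)) hone)).1 this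
    have h3 := (Subgroup.mul_mem_cancel_left H
      (hA (1 * a) _ _ (rt_single _) (rt_single _) (by simp) hef
        (fun β e => by simpa using congrFun e (Sum.inr j)))).1 h2
    rwa [mul_one, sq] at h3
  have hT : ∀ c : F, tvGL 𝖾i c ∈ H := by
    intro c
    by_cases h2 : (2 : F) = 0
    · haveI : CharP F 2 := CharTwo.of_one_ne_zero_of_two_eq_zero one_ne_zero h2
      obtain ⟨a, rfl⟩ := FiniteField.isSquare_of_char_two (ringChar.eq F 2) c
      exact hsq a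
    · have e : c = ((c + 1) / 2) * ((c + 1) / 2) + -(((c - 1) / 2) * ((c - 1) / 2)) := by
        have h4 : (4 : F) ≠ 0 := by
          rw [show (4 : F) = 2 * 2 by norm_num]; exact mul_ne_zero h2 h2
        field_simp; ring
      rw [e, ← tvGL_mul, ← tvGL_inv]
      exact mul_mem (hsq _) (inv_mem (hsq _))
  have hTr : ∀ z : V, Rt F₀ z → ∀ c : F, tvGL z c ∈ H := by
    intro z hz c
    by_cases hz0 : z = 0
    · rw [hz0, ← zero_smul F 𝖾i, tvGL_smul]; exact hT _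
    · obtain ⟨g, hg, gR, e⟩ := exists_move (rt_single (.inl i)) hz (by simp) hz0
      have := conj_mem S hg gR (hT c)
      rwa [tvGL_conj hg, e] at this
  -- transitivity
  have hpre : ∀ u : V, u ≠ 0 → ∃ g ∈ H, (↟g *ᵥ u) (.inr i) ≠ 0 := by
    intro u hu
    by_cases h0 : u (.inr i) = 0
    · obtain ⟨k, hk⟩ := Function.ne_iff.1 hu
      obtain ⟨z, hz, hz'⟩ : ∃ z : V, Rt F₀ z ∧ (z (.inr i) ≠ 0 ∧ f u z ≠ 0) := by
        by_cases hf : f u 𝖿i = 0
        · obtain ⟨s, hs, hs', rfl⟩ := exists_detect (F₀ := F₀) k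
          refine ⟨𝖿i + Pi.single k.swap 1, rt_add (rt_single _) hs, ?_, ?_⟩
          · rcases k with k | k
            · have : k ≠ i := fun e => hk (by
                subst e
                rw [form_single_inr_right, neg_eq_zero] at hf
                simpa using hf)
              simp [this.symm]
            · simp
          · rw [form_add_right, hf, zero_add]; exact fun e => hk ((hs' u).1 e)
        · exact ⟨_, rt_single _, by simp, hf⟩
      refine ⟨tvGL z 1, hTr z hz 1, ?_⟩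
      rw [tvGL_mulVec, Pi.add_apply, Pi.smul_apply, smul_eq_mul, h0, zero_add, one_mul]
      exact mul_ne_zero hz'.2 hz'.1
    · exact ⟨1, one_mem _, by simpa using h0⟩
  have hkill : ∀ u : V, u (.inr i) ≠ 0 → ∀ s : Finset (Fin m ⊕ Fin m), ∃ g ∈ H, (↟g *ᵥ u) (.inr i) = u (.inr i) ∧
      ∀ k ∈ s, k ≠ Sum.inl i → k ≠ Sum.inr i → (↟g *ᵥ u) k = 0 := by
    intro u hu s
    induction s using Finset.induction_on with
    | empty => exact ⟨1, one_mem _, by simp, by simp⟩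
    | insert k s hks ih =>
      obtain ⟨g, hg, e1, e2⟩ := ih
      by_cases hk : k = Sum.inl i ∨ k = Sum.inr i
      · refine ⟨g, hg, e1, fun k' hk' a b => ?_⟩
        rcases Finset.mem_insert.1 hk' with rfl | h
        · rcases hk with h | h
          · exact absurd h a
          · exact absurd h b
        · exact e2 k' h a b
      push Not at hk
      set w := ↟g *ᵥ u with hw
      set t : V := Pi.single k 1 with ht
      have hte : f 𝖾i t = 0 := by
        rw [form_skew, form_single_inl_right, ht, Pi.single_eq_of_ne hk.2.symm, neg_zero]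
      have hind : ∀ β : F, t ≠ β • 𝖾i := fun β e => by
        simpa [ht, hk.1] using congrFun e k
      have hA' := hA (-(w k) / u (.inr i)) 𝖾i t (rt_single _) (rt_single k) (by simp) hte hind
      refine ⟨_, mul_mem hA' hg, ?_, fun k' hk' a b => ?_⟩
      · rw [Units.val_mul, ← mulVec_mulVec, ← hw, eg_mulVec hte]
        simp [ht, hk.2.symm, e1]
      · rw [Units.val_mul, ← mulVec_mulVec, ← hw, eg_mulVec hte, form_single_inl_right, e1]
        rcases eq_or_ne k' k with rfl | hne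
        · simp [ht, a]; field_simp; ring
        · simp [ht, a, hne, e2 k' ((Finset.mem_insert.1 hk').resolve_left hne) a b]
  have htrans : ∀ u : V, u ≠ 0 → ∃ g ∈ H, ↟g *ᵥ u = 𝖾i := by
    intro u hu
    obtain ⟨g₀, hg₀, h0⟩ := hpre u hu
    obtain ⟨g₁, hg₁, e1, e2⟩ := hkill _ h0 Finset.univ
    set w := ↟g₁ *ᵥ (↟g₀ *ᵥ u) with hw
    set β := w (.inr i) with hβ
    have hβ0 : β ≠ 0 := e1 ▸ h0
    have hwe : w = w (.inl i) • 𝖾i + β • 𝖿i := funext fun k => by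
      rcases eq_or_ne k (Sum.inl i) with rfl | a
      · simp
      rcases eq_or_ne k (Sum.inr i) with rfl | b
      · simp [hβ]
      · simp [a, b, e2 k (Finset.mem_univ k) a b]
    refine ⟨tvGL 𝖿i β * tvGL 𝖾i ((1 - w (.inl i)) / β) * g₁ * g₀,
      mul_mem (mul_mem (mul_mem (hTr _ (rt_single _) _) (hT _)) hg₁) hg₀, ?_⟩
    simp only [Units.val_mul, ← mulVec_mulVec, ← hw]
    have e3 : ↟(tvGL 𝖾i ((1 - w (.inl i)) / β)) *ᵥ w = 𝖾i + β • 𝖿i := by
      rw [tvGL_mulVec, form_single_inl_right, ← hβ, div_mul_cancel₀ _ hβ0]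
      conv_lhs => arg 1; rw [hwe]
      module
    rw [e3, tvGL_mulVec, form_add_left, form_smul_left, form_self, form_ef, if_pos rfl]
    module
  by_cases hv : v = 0
  · exact hTr v (by rw [hv]; exact fun _ => zero_mem _) c
  · obtain ⟨g, hg, e⟩ := htrans v hv
    have := mul_mem (mul_mem (inv_mem hg) (hT c)) hg
    have h2 := tvGL_conj (inv_mem (S.le hg)) 𝖾i c
    rw [← e, GeoFull.inv_mulVec_cancel, inv_inv] at h2
    rw [← h2]
    rw [e]; exact this

end CfsgLib.SubMaxSp
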