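import Mathlib
import Cfsg.Agent.SubMaxSp.Alg

/-!
Elements of `H` fixing a rational vector are rational.
-/

set_option autoImplicit false

namespace CfsgLib.SubMaxSp

open Matrix CfsgLib.SpGeom CfsgLib.GeoSp

variable {F : Type*} [Field F] {m : ℕ}

/-- The case in which all coefficients are rational. -/
structure Tight (H : Subgroup (GL (Fin m ⊕ Fin m) F)) (F₀ : Subfield F) : Prop extends Setting H F₀ where
  small : ∀ a, MemA H F₀ a → a ∈ F₀

variable {H : Subgroup (GL (Fin m ⊕ Fin m) F)} {F₀ : Subfield F}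

local notation "V" => (Fin m ⊕ Fin m → F)
local notation "G" => GL (Fin m ⊕ Fin m) F
local notation "f" => Cfsg.sympForm m F
local notation:max "↟" g:max => ((g : GL (Fin m ⊕ Fin m) F) : Matrix (Fin m ⊕ Fin m) (Fin m ⊕ Fin m) F)
local notation:max "𝖾" i:max => (Pi.single (Sum.inl i) (1 : F) : Fin m ⊕ Fin m → F)
local notation:max "𝖿" i:max => (Pi.single (Sum.inr i) (1 : F) : Fin m ⊕ Fin m → F)

variable [Fintype F] (T : Tight H F₀)
include T

theorem fix_std_isR {h : G} (hh : h ∈ H) (i : Fin m) (he : ↟h *ᵥ 𝖾i = 𝖾i) : IsR F₀ h := by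
  classical
  have S := T.toSetting
  have hsp := S.le hh
  have heR : Rt F₀ 𝖾i := rt_single _
  have hperp : ∀ y, Rt F₀ y → f y 𝖾i = 0 → Rt F₀ (↟h *ᵥ y) := by
    intro y hy hye
    by_cases hdep : ∀ β : F, y ≠ β • 𝖾i
    swap
    · push Not at hdep
      obtain ⟨β, hβ⟩ := hdep
      rw [hβ, mulVec_smul, he, ← hβ]; exact hy
    set x := ↟h *ᵥ y with hx
    have hxe : f x 𝖾i = 0 := by rw [hx, ← he, mem_spGL.1 hsp, hye]
    have hex : f 𝖾i x = 0 := by rw [form_skew, hxe, neg_zero]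
    have hey : f 𝖾i y = 0 := by rw [form_skew, hye, neg_zero]
    have hm : eg 𝖾i x 1 ∈ H := by
      have h1 : eg 𝖾i y 1 ∈ H := mul_mem (mul_mem (tv_mem S (rt_add heR hy) (one_mem _))
        (tv_mem S heR (neg_mem (one_mem _)))) (tv_mem S hy (neg_mem (one_mem _)))
      have := mul_mem (mul_mem hh h1) (inv_mem hh)
      rwa [eg_conj hsp, he] at this
    have hβ : ∀ z, Rt F₀ z → f z 𝖾i = 0 → (∀ β : F, z ≠ β • 𝖾i) → f x z ∈ F₀ := by
      intro z hz hze hzi
      set β := f x z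
      have hez : f 𝖾i z = 0 := by rw [form_skew, hze, neg_zero]
      have hk := tv_mem S hz (one_mem F₀)
      have h2 := mul_mem (mul_mem (mul_mem hk hm) (inv_mem hk)) (inv_mem hm)
      rw [eg_conj (tvGL_mem _ _), tvGL_mulVec, tvGL_mulVec, hez, mul_zero, zero_smul, add_zero, one_mul] at h2
      have hbz : f 𝖾i (β • z) = 0 := by rw [form_smul_right, hez, mul_zero]
      have e1 := eg_mul_eg hbz hex (1 : F)
      rw [show β • z + x = x + β • z from add_comm _ _] at e1
      have hc : eg 𝖾i x 1 * tvGL 𝖾i (-(1 * 1 * f x (β • z))) * (eg 𝖾i x 1)⁻¹ =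
          tvGL 𝖾i (-(1 * 1 * f x (β • z))) := by
        rw [tvGL_conj (eg_mem_spGL _ _ _), eg_mulVec hex, form_self, hex, zero_smul, zero_smul, add_zero,
          smul_zero, add_zero]
      rw [show eg 𝖾i (x + β • z) 1 = eg 𝖾i (β • z) 1 * eg 𝖾i x 1 * tvGL 𝖾i (-(1 * 1 * f x (β • z))) by
          rw [e1, mul_assoc, tvGL_mul, add_neg_cancel, tvGL_zero, mul_one],
        show eg 𝖾i (β • z) 1 * eg 𝖾i x 1 * tvGL 𝖾i (-(1 * 1 * f x (β • z))) * (eg 𝖾i x 1)⁻¹ =
          eg 𝖾i (β • z) 1 * (eg 𝖾i x 1 * tvGL 𝖾i (-(1 * 1 * f x (β • z))) * (eg 𝖾i x 1)⁻¹) by group,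
        hc, eg_smul_right hez, one_mul] at h2
      exact T.small _ (memA_of S i hz hze hzi h2)
    have hcoord : ∀ k, k ≠ Sum.inl i → x k ∈ F₀ := by
      intro k hk
      rcases k with j | j
      · have hji : j ≠ i := fun e => hk (e ▸ rfl)
        have := hβ 𝖿j (rt_single _) (by rw [form_fe, if_neg hji]) (fun β e => by simpa using congrFun e (Sum.inr j))
        rw [form_single_inr_right] at this
        simpa using neg_mem this
      · rcases eq_or_ne j i with rfl | hji
        · rw [← form_single_inl_right x j, hxe]; exact zero_mem _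
        · have := hβ 𝖾j (rt_single _) (form_ee j i) (ne_smul_e hji)
          rwa [form_single_inl_right] at this
    set α := x (.inl i)
    set z := x - α • 𝖾i with hz
    have hzR : Rt F₀ z := fun k => by
      rcases eq_or_ne k (Sum.inl i) with rfl | hk
      · simp [hz, α, zero_mem]
      · simpa [hz, hk] using hcoord k hk
    have hez : f 𝖾i z = 0 := by rw [hz, form_sub_right, hex, form_smul_right, form_self, mul_zero, sub_zero]
    have hzi : ∀ β : F, z ≠ β • 𝖾i := fun β e => hdep (α + β) (by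
      have e2 : x = (α + β) • 𝖾i := by rw [add_smul, ← e, hz]; abel
      rw [← GeoFull.inv_mulVec_cancel h y, ← hx, e2, mulVec_smul]
      congr 1
      conv_lhs => rw [← he]
      exact GeoFull.inv_mulVec_cancel h _)
    have h3 : tvGL x 1 ∈ H := by
      have := mul_mem (mul_mem hh (tv_mem S hy (one_mem F₀))) (inv_mem hh)
      rwa [tvGL_conj hsp] at this
    have hxz : x = α • 𝖾i + z := by rw [hz]; abel
    rw [hxz, tv_eq_of_add (show f (α • 𝖾i) z = 0 by rw [form_smul_left, hez, mul_zero]), eg_smul hez, one_mul,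
      tvGL_smul] at h3
    have hα : α ∈ F₀ := T.small _ (memA_of S i hzR (by rw [form_skew, hez, neg_zero]) hzi
      ((Subgroup.mul_mem_cancel_right H (tv_mem S hzR (one_mem F₀))).1 h3))
    rw [hxz]
    exact rt_add (rt_smul hα heR) hzR
  -- the image of the opposite vector
  set x := ↟h *ᵥ 𝖿i with hx
  have hxi : x (.inr i) = 1 := by
    rw [← form_single_inl_right x i, hx, ← he, mem_spGL.1 hsp, form_fe, if_pos rfl]
  have hsurj : ∀ z, Rt F₀ z → f z 𝖾i = 0 → ∃ y, Rt F₀ y ∧ ↟h *ᵥ y = z := by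
    intro z hz hze
    let φ : {y : V // Rt F₀ y ∧ f y 𝖾i = 0} → {y : V // Rt F₀ y ∧ f y 𝖾i = 0} := fun y =>
      ⟨↟h *ᵥ y.1, hperp y.1 y.2.1 y.2.2, by
        rw [show f (↟h *ᵥ y.1) 𝖾i = f (↟h *ᵥ y.1) (↟h *ᵥ 𝖾i) by rw [he], mem_spGL.1 hsp]; exact y.2.2⟩
    have hinj : Function.Injective φ := fun a b e => Subtype.ext (by
      have := congrArg (fun t => ↟(h⁻¹) *ᵥ (t : {y : V // Rt F₀ y ∧ f y 𝖾i = 0}).1) e
      simpa [φ, GeoFull.inv_mulVec_cancel] using this)
    obtain ⟨y, hy⟩ := (Finite.injective_iff_surjective.1 hinj) ⟨z, hz, hze⟩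
    exact ⟨y.1, y.2.1, congrArg Subtype.val hy⟩
  have hcoord : ∀ k, k ≠ Sum.inl i → x k ∈ F₀ := by
    intro k hk
    rcases k with j | j
    · have hji : j ≠ i := fun e => hk (e ▸ rfl)
      obtain ⟨y, hy, e⟩ := hsurj 𝖿j (rt_single _) (by rw [form_fe, if_neg hji])
      have h1 := rt_form (rt_single (F₀ := F₀) (.inr i)) hy
      rw [← mem_spGL.1 hsp, e, ← hx, form_single_inr_right] at h1
      simpa using neg_mem h1
    · rcases eq_or_ne j i with rfl | hji
      · rw [hxi]; exact one_mem _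
      · obtain ⟨y, hy, e⟩ := hsurj 𝖾j (rt_single _) (form_ee j i)
        have h1 := rt_form (rt_single (F₀ := F₀) (.inr i)) hy
        rwa [← mem_spGL.1 hsp, e, ← hx, form_single_inl_right] at h1
  set α := x (.inl i) with hα
  set g := tvGL 𝖾i (-α) * h with hg
  have hgR : IsR F₀ g := by
    intro y hy
    set b := y (.inr i) with hb
    have hy' : Rt F₀ (y - b • 𝖿i) := rt_sub hy (rt_smul (hy _) (rt_single _))
    have hy'e : f (y - b • 𝖿i) 𝖾i = 0 := by simp [form_single_inl_right, hb]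
    have h1 := hperp _ hy' hy'e
    have e1 : ↟g *ᵥ y = ↟h *ᵥ (y - b • 𝖿i) + b • (x - α • 𝖾i) := by
      have e2 : f (↟h *ᵥ y) 𝖾i = b := by rw [← he, mem_spGL.1 hsp, form_single_inl_right]
      rw [hg, Units.val_mul, ← mulVec_mulVec, tvGL_mulVec, e2, mulVec_sub, mulVec_smul, ← hx]
      module
    rw [e1]
    refine rt_add h1 (rt_smul (hy _) fun k => ?_)
    rcases eq_or_ne k (Sum.inl i) with rfl | hk
    · simp [hα, zero_mem]
    · simpa [hk] using hcoord k hk
  have hgH : g ∈ H := S.rat g (mul_mem (tvGL_mem _ _) hsp) hgR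
  have hαF : α ∈ F₀ := by
    have h2 := T.small _ (memA_of_tv S (c := -α) heR (by simp) ((Subgroup.mul_mem_cancel_right H hh).1 hgH))
    simpa using neg_mem h2
  have e : h = tvGL 𝖾i α * g := by rw [hg, ← mul_assoc, tvGL_mul, add_neg_cancel, tvGL_zero, one_mul]
  rw [e]
  exact isR_mul (isR_tv heR hαF) hgR

/-- An element of `H` fixing a non-zero rational vector is rational. -/
theorem fix_isR {h : G} (hh : h ∈ H) {u : V} (hu : Rt F₀ u) (hu0 : u ≠ 0) (he : ↟h *ᵥ u = u) : IsR F₀ h := by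
  have S := T.toSetting
  set i : Fin m := ⟨0, by linarith [S.big]⟩
  obtain ⟨g, hg, gR, e⟩ := exists_move hu (rt_single (.inl i)) hu0 (by simp)
  have hc := fix_std_isR T (conj_mem S hg gR hh) i (by
    simp only [Units.val_mul, ← mulVec_mulVec, ← e, GeoFull.inv_mulVec_cancel, he])
  have := isR_mul (isR_mul (isR_inv gR) hc) gR
  rwa [show g⁻¹ * (g * h * g⁻¹) * g = h by group] at this

end CfsgLib.SubMaxSp
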