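import Mathlib

/-!
Subfields of prime index in a finite field.
-/

set_option autoImplicit false

namespace CfsgLib.SubMaxSp

variable {F : Type*} [Field F] [Fintype F] {F₀ : Subfield F} {r : ℕ}

/-- A subring above a subfield of prime index is everything or the subfield. -/
theorem ring_dichotomy (hr : r.Prime) (hcard : Fintype.card F = Nat.card F₀ ^ r) (R : Subring F)
    (hR : ∀ a ∈ F₀, a ∈ R) : R = ⊤ ∨ ∀ a ∈ R, a ∈ F₀ := by
  have hq2 : 2 ≤ Nat.card F₀ := Finite.one_lt_card
  by_contra hno
  push Not at hno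
  obtain ⟨hR1, x, hxR, hxF⟩ := hno
  haveI : Finite R := Subtype.finite
  let K : Subfield F :=
    { R with
      inv_mem' := fun y hy => by
        by_cases hy0 : y = 0
        · subst hy0; rw [_root_.inv_zero]; exact R.zero_mem
        · have h1 := FiniteField.pow_card_sub_one_eq_one y hy0
          have h2 : y⁻¹ = y ^ (Fintype.card F - 1 - 1) := by
            refine inv_eq_of_mul_eq_one_right ?_
            have := Fintype.one_lt_card (α := F)
            rw [← pow_succ', show Fintype.card F - 1 - 1 + 1 = Fintype.card F - 1 by omega, h1]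
          rw [h2]
          exact (pow_mem (show y ∈ R from hy) _ : y ^ _ ∈ R) }
  have hle : F₀ ≤ K := hR
  letI : Algebra F₀ K := (Subfield.inclusion hle).toAlgebra
  haveI : Fintype K := Fintype.ofFinite K
  haveI : Fintype F₀ := Fintype.ofFinite F₀
  have e1 : Nat.card K = Nat.card F₀ ^ Module.finrank F₀ K := by
    rw [Nat.card_eq_fintype_card, Nat.card_eq_fintype_card]
    exact Module.card_eq_pow_finrank (K := F₀) (V := K)
  have e2 : Fintype.card F = Nat.card K ^ Module.finrank K F := by
    rw [Nat.card_eq_fintype_card]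
    exact Module.card_eq_pow_finrank (K := K) (V := F)
  rw [e1, ← pow_mul, hcard] at e2
  have e3 := Nat.pow_right_injective hq2 e2
  rcases (Nat.Prime.eq_one_or_self_of_dvd hr _ (Dvd.intro _ e3.symm)) with he | he
  · refine hxF ?_
    have hset : (F₀ : Set F) = (K : Set F) := Set.eq_of_subset_of_ncard_le hle (by
      rw [← Nat.card_coe_set_eq, ← Nat.card_coe_set_eq]
      exact le_of_eq (show Nat.card K = Nat.card F₀ by rw [e1, he, pow_one]))
    show x ∈ (F₀ : Set F)
    rw [hset]; exact hxR
  · refine hR1 (eq_top_iff.2 fun y _ => ?_)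
    have hset : (K : Set F) = Set.univ := Set.eq_of_subset_of_ncard_le (Set.subset_univ _) (by
      rw [Set.ncard_univ, ← Nat.card_coe_set_eq]
      exact le_of_eq (show Nat.card F = Nat.card K by rw [e1, he, Nat.card_eq_fintype_card, hcard]))
    show y ∈ (K : Set F)
    rw [hset]; trivial

/-- In odd prime index no further element is quadratic. -/
theorem mem_of_quad (hr : r.Prime) (hr3 : 3 ≤ r) (hcard : Fintype.card F = Nat.card F₀ ^ r) {x a b : F}
    (ha : a ∈ F₀) (hb : b ∈ F₀) (h : x * x = a * x + b) : x ∈ F₀ := by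
  by_contra hx
  let R : Subring F :=
    { carrier := {c | ∃ u ∈ F₀, ∃ v ∈ F₀, c = u + v * x}
      one_mem' := ⟨1, one_mem _, 0, zero_mem _, by simp⟩
      zero_mem' := ⟨0, zero_mem _, 0, zero_mem _, by simp⟩
      add_mem' := by
        rintro _ _ ⟨u, hu, v, hv, rfl⟩ ⟨u', hu', v', hv', rfl⟩
        exact ⟨u + u', add_mem hu hu', v + v', add_mem hv hv', by ring⟩
      neg_mem' := by
        rintro _ ⟨u, hu, v, hv, rfl⟩
        exact ⟨-u, neg_mem hu, -v, neg_mem hv, by ring⟩
      mul_mem' := by
        rintro _ _ ⟨u, hu, v, hv, rfl⟩ ⟨u', hu', v', hv', rfl⟩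
        exact ⟨u * u' + v * v' * b, add_mem (mul_mem hu hu') (mul_mem (mul_mem hv hv') hb),
          u * v' + v * u' + v * v' * a,
          add_mem (add_mem (mul_mem hu hv') (mul_mem hv hu')) (mul_mem (mul_mem hv hv') ha),
          by linear_combination (v * v') * h⟩ }
  have htop := (ring_dichotomy hr hcard R fun c hc => ⟨c, hc, 0, zero_mem _, by simp⟩).resolve_right fun h0 =>
    hx (h0 x ⟨0, zero_mem _, 1, one_mem _, by simp⟩)
  have hle : Nat.card F ≤ Nat.card F₀ * Nat.card F₀ := by
    rw [← Nat.card_prod]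
    refine Nat.card_le_card_of_surjective (fun uv : F₀ × F₀ => (uv.1 : F) + uv.2 * x) fun c => ?_
    obtain ⟨u, hu, v, hv, rfl⟩ : c ∈ R := htop ▸ Subring.mem_top c
    exact ⟨(⟨u, hu⟩, ⟨v, hv⟩), rfl⟩
  rw [Nat.card_eq_fintype_card, hcard, ← pow_two] at hle
  have := (Nat.pow_le_pow_iff_right (Finite.one_lt_card (α := F₀))).1 hle
  omega

end CfsgLib.SubMaxSp
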