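import Mathlib
import Cfsg.Agent.SubMaxSp.Fix
import Cfsg.Agent.SubMaxSp.Quad
import Cfsg.Agent.SubMax.RankOne

/-!
Every transvection of `H` has a rational line as centre.
-/

set_option autoImplicit false

namespace CfsgLib.SubMaxSp

open Matrix CfsgLib.SpGeom CfsgLib.GeoSp

variable {F : Type*} [Field F] {m : ℕ} {H : Subgroup (GL (Fin m ⊕ Fin m) F)} {F₀ : Subfield F}

local notation "V" => (Fin m ⊕ Fin m → F)
local notation "G" => GL (Fin m ⊕ Fin m) F
local notation "f" => Cfsg.sympForm m F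
local notation:max "↟" g:max => ((g : GL (Fin m ⊕ Fin m) F) : Matrix (Fin m ⊕ Fin m) (Fin m ⊕ Fin m) F)
local notation:max "𝖾" i:max => (Pi.single (Sum.inl i) (1 : F) : Fin m ⊕ Fin m → F)
local notation:max "𝖿" i:max => (Pi.single (Sum.inr i) (1 : F) : Fin m ⊕ Fin m → F)

/-- The products of coordinates of the centre of a rational transvection. -/
theorem centre_rat {z : Fin m ⊕ Fin m → F} {c : F} (h : IsR F₀ (tvGL z c)) (a b : Fin m ⊕ Fin m) :
    c * z a * z b ∈ F₀ := by
  have key : ∀ x : V, Rt F₀ x → c * f x z * z b ∈ F₀ := by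
    intro x hx
    have h1 := sub_mem (h x hx b) (hx b)
    rwa [tvGL_mulVec, Pi.add_apply, Pi.smul_apply, smul_eq_mul, add_sub_cancel_left] at h1
  rcases a with i | i
  · have h1 := key _ (rt_single (.inr i))
    rwa [form_skew, form_single_inr_right, neg_neg] at h1
  · have h1 := neg_mem (key _ (rt_single (.inl i)))
    rw [form_skew, form_single_inl_right] at h1
    simpa using h1

variable [Fintype F] (T : Tight H F₀) {r : ℕ} (hr : r.Prime) (hcard : Fintype.card F = Nat.card F₀ ^ r)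
include T hr hcard

/-- No centre has all rational vectors off its polar hyperplane. -/
theorem no_generic {w : V} {c : F} (hc : c ≠ 0) (hy : tvGL w c ∈ H)
    (hinj : ∀ u, Rt F₀ u → f u w = 0 → u = 0) : False := by
  classical
  have S := T.toSetting
  set i : Fin m := ⟨0, by linarith [S.big]⟩
  obtain ⟨j, l, hji, hli, hlj⟩ := exists_three S i
  have hr3 : 3 ≤ r := by
    let vec : F₀ × F₀ × F₀ → V := fun a => (a.1 : F) • 𝖾i + (a.2.1 : F) • 𝖾j + (a.2.2 : F) • 𝖾l
    have hvec : ∀ a, Rt F₀ (vec a) := fun a => rt_add (rt_add (rt_smul a.1.2 (rt_single _))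
      (rt_smul a.2.1.2 (rt_single _))) (rt_smul a.2.2.2 (rt_single _))
    have h3 : Nat.card F₀ ^ 3 ≤ Nat.card F₀ ^ r := by
      rw [← hcard, ← Nat.card_eq_fintype_card,
        show Nat.card F₀ ^ 3 = Nat.card (F₀ × F₀ × F₀) by rw [Nat.card_prod, Nat.card_prod]; ring]
      refine Nat.card_le_card_of_injective (fun a => f (vec a) w) fun x x' hxx => ?_
      have h0 := sub_eq_zero.1 (hinj _ (rt_sub (hvec x) (hvec x')) (by
        rw [form_sub_left]; exact sub_eq_zero.2 hxx))
      have ei := congrFun h0 (Sum.inl i)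
      have ej := congrFun h0 (Sum.inl j)
      have el := congrFun h0 (Sum.inl l)
      simp [vec, hji.symm, hli.symm] at ei
      simp [vec, hji, hlj.symm] at ej
      simp [vec, hli, hlj] at el
      exact Prod.ext ei (Prod.ext ej el)
    exact (Nat.pow_le_pow_iff_right (Finite.one_lt_card (α := F₀))).1 h3
  have hsq : ∀ x : F, x * x ∈ F₀ → x ∈ F₀ := fun x hx =>
    mem_of_quad hr hr3 hcard (zero_mem _) hx (by ring)
  set α := f 𝖾i w with hα
  have hα0 : α ≠ 0 := fun h => by simpa using congrFun (hinj _ (rt_single _) h) (Sum.inl i)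
  set lam := f 𝖾j w / α with hlamdef
  have hlam : lam ∉ F₀ := fun h => by
    have h0 := hinj _ (rt_sub (rt_single (.inl j)) (rt_smul h (rt_single (.inl i))))
      (by rw [form_sub_left, form_smul_left, ← hα, hlamdef, div_mul_cancel₀ _ hα0, sub_self])
    simpa [hji] using congrFun h0 (Sum.inl j)
  have hlam0 : lam ≠ 0 := fun h => hlam (h ▸ zero_mem _)
  set v : V := 𝖾j - lam • 𝖾i with hv
  have hej : 𝖾j = v + lam • 𝖾i := by rw [hv]; abel
  have hiv : f 𝖾i v = 0 := by rw [hv, form_sub_right, form_smul_right, form_ee, form_ee, mul_zero, sub_zero]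
  have hjv : f 𝖾j v = 0 := by rw [hv, form_sub_right, form_smul_right, form_ee, form_ee, mul_zero, sub_zero]
  have hwv : f w v = 0 := by
    rw [hv, form_sub_right, form_smul_right, form_skew 𝖾j w, form_skew 𝖾i w, ← hα, hlamdef, mul_neg,
      div_mul_cancel₀ _ hα0]
    ring
  have hvw : f v w = 0 := by rw [form_skew, hwv, neg_zero]
  have hvi : f v 𝖾i = 0 := by rw [form_skew, hiv, neg_zero]
  have hwi : f w 𝖾i = -α := by rw [hα, form_skew]
  let ψ : V → F := fun x => f x w / α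
  let φ : V → F := fun x => f x 𝖾i / (-α)
  let res : V → V := fun x => x - ψ x • 𝖾i - φ x • w
  have hψi : ψ 𝖾i = 1 := by simp [ψ, ← hα, hα0]
  have hψw : ψ w = 0 := by simp [ψ, form_self]
  have hψv : ψ v = 0 := by simp [ψ, hvw]
  have hφi : φ 𝖾i = 0 := by simp [φ, form_self]
  have hφw : φ w = 1 := by simp [φ, hwi, hα0]
  have hφv : φ v = 0 := by simp [φ, hvi]
  have hres : ∀ x, f x v = 0 → f (res x) 𝖾i = 0 ∧ f (res x) w = 0 ∧ f (res x) v = 0 := by
    intro x hx
    simp only [res, form_sub_left, form_smul_left, form_self, hwi, ← hα, hx, hiv, hwv, ψ, φ]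
    refine ⟨?_, ?_, by ring⟩ <;> field_simp <;> ring
  let M₂ : G → Matrix (Fin 2) (Fin 2) F := fun g =>
    !![ψ (↟g *ᵥ 𝖾i), ψ (↟g *ᵥ w); φ (↟g *ᵥ 𝖾i), φ (↟g *ᵥ w)]
  let Fix : G → Prop := fun g => g ∈ Cfsg.spGL m F ∧ ↟g *ᵥ v = v ∧
    ∀ x, f x 𝖾i = 0 → f x w = 0 → f x v = 0 → ↟g *ᵥ x = x
  have hdec : ∀ g, Fix g → ∀ x, f x v = 0 → ↟g *ᵥ x = ψ x • (↟g *ᵥ 𝖾i) + φ x • (↟g *ᵥ w) + res x := by
    intro g hg x hx
    obtain ⟨a, b, d⟩ := hres x hx
    have h1 := hg.2.2 _ a b d
    simp only [res, mulVec_sub, mulVec_smul] at h1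
    simp only [res]
    rw [sub_eq_iff_eq_add, sub_eq_iff_eq_add] at h1
    rw [h1]; abel
  have hkeep : ∀ g, Fix g → ∀ x, f x v = 0 → f (↟g *ᵥ x) v = 0 := fun g hg x hx => by
    rw [show f (↟g *ᵥ x) v = f (↟g *ᵥ x) (↟g *ᵥ v) by rw [hg.2.1], mem_spGL.1 hg.1, hx]
  have hM2 : ∀ g g' : G, Fix g → Fix g' → M₂ (g * g') = M₂ g * M₂ g' := by
    intro g g' hg hg'
    have key : ∀ u, f u v = 0 → ψ (↟(g * g') *ᵥ u) = ψ (↟g *ᵥ 𝖾i) * ψ (↟g' *ᵥ u) + ψ (↟g *ᵥ w) * φ (↟g' *ᵥ u) ∧
        φ (↟(g * g') *ᵥ u) = φ (↟g *ᵥ 𝖾i) * ψ (↟g' *ᵥ u) + φ (↟g *ᵥ w) * φ (↟g' *ᵥ u) := by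
      intro u hu
      have hx := hkeep g' hg' u hu
      obtain ⟨a, b, -⟩ := hres _ hx
      rw [Units.val_mul, ← mulVec_mulVec, hdec g hg _ hx]
      constructor
      · show f _ w / α = _
        rw [form_add_left, form_add_left, form_smul_left, form_smul_left, b]
        simp only [ψ]; ring
      · show f _ 𝖾i / (-α) = _
        rw [form_add_left, form_add_left, form_smul_left, form_smul_left, a]
        simp only [φ]; ring
    obtain ⟨k1, k2⟩ := key _ hiv
    obtain ⟨k3, k4⟩ := key _ hwv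
    ext a b
    fin_cases a <;> fin_cases b <;> simp [M₂, Matrix.mul_apply, Fin.sum_univ_two, -mulVec_single] <;> assumption
  have hM1 : M₂ 1 = 1 := by
    ext a b
    fin_cases a <;> fin_cases b <;> simp [M₂, hψi, hψw, hφi, hφw, -mulVec_single]
  let Gd : Subgroup G :=
    { carrier := {g | Fix g ∧ (M₂ g).det = 1}
      one_mem' := ⟨⟨one_mem _, by simp, fun x _ _ _ => by simp⟩, by rw [hM1, det_one]⟩
      mul_mem' := fun {g g'} hg hg' => by
        refine ⟨⟨mul_mem hg.1.1 hg'.1.1, by rw [Units.val_mul, ← mulVec_mulVec, hg'.1.2.1, hg.1.2.1],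
          fun x a b d => by rw [Units.val_mul, ← mulVec_mulVec, hg'.1.2.2 x a b d, hg.1.2.2 x a b d]⟩, ?_⟩
        rw [hM2 g g' hg.1 hg'.1, det_mul, hg.2, hg'.2, one_mul]
      inv_mem' := fun {g} hg => by
        have hinvfix : ∀ x, ↟g *ᵥ x = x → ↟(g⁻¹) *ᵥ x = x := fun x hx => by
          conv_lhs => rw [← hx]
          exact GeoFull.inv_mulVec_cancel g x
        have hF : Fix g⁻¹ := ⟨inv_mem hg.1.1, hinvfix _ hg.1.2.1, fun x a b d => hinvfix _ (hg.1.2.2 x a b d)⟩
        refine ⟨hF, ?_⟩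
        have e3 := congrArg Matrix.det (hM2 g g⁻¹ hg.1 hF)
        rw [det_mul, hg.2, one_mul, mul_inv_cancel, hM1, det_one] at e3
        exact e3.symm }
  set y := tvGL w c with hydef
  set J : Subgroup G := Subgroup.closure
    (insert y {g | ∃ s : F₀, g = tvGL 𝖾i (s : F) ∨ g = tvGL 𝖾j (s : F)}) with hJ
  have hgens : ∀ g ∈ insert y {g | ∃ s : F₀, g = tvGL 𝖾i (s : F) ∨ g = tvGL 𝖾j (s : F)}, g ∈ H := by
    rintro g (rfl | ⟨s, rfl | rfl⟩)
    · exact hy
    · exact tv_mem S (rt_single _) s.2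
    · exact tv_mem S (rt_single _) s.2
  have hJH : J ≤ H := (Subgroup.closure_le _).2 hgens
  have hejw : f 𝖾j w = lam * α := by rw [hlamdef, div_mul_cancel₀ _ hα0]
  have hJG : J ≤ Gd := by
    refine (Subgroup.closure_le _).2 ?_
    rintro g (rfl | ⟨s, rfl | rfl⟩)
    · refine ⟨⟨tvGL_mem _ _, by rw [hydef, tvGL_mulVec, hvw, mul_zero, zero_smul, add_zero],
        fun x _ b _ => by rw [hydef, tvGL_mulVec, b, mul_zero, zero_smul, add_zero]⟩, ?_⟩
      simp only [M₂, hydef, tvGL_mulVec, form_self, ← hα, ψ, φ, form_add_left, form_smul_left, hwi, det_fin_two_of]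
      field_simp; ring
    · refine ⟨⟨tvGL_mem _ _, by rw [tvGL_mulVec, hvi, mul_zero, zero_smul, add_zero],
        fun x a _ _ => by rw [tvGL_mulVec, a, mul_zero, zero_smul, add_zero]⟩, ?_⟩
      simp only [M₂, tvGL_mulVec, form_self, ← hα, ψ, φ, form_add_left, form_smul_left, hwi, det_fin_two_of]
      field_simp; ring
    · have hwj : f w 𝖾j = -(lam * α) := by rw [form_skew, hejw]
      have hvj : f v 𝖾j = 0 := by rw [form_skew, hjv, neg_zero]
      refine ⟨⟨tvGL_mem _ _, by rw [tvGL_mulVec, hvj, mul_zero, zero_smul, add_zero],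
        fun x a _ d => by
          rw [tvGL_mulVec, hej, form_add_right, form_smul_right, a, d, mul_zero, add_zero, mul_zero, zero_smul,
            add_zero]⟩, ?_⟩
      simp only [M₂, tvGL_mulVec, form_self, ← hα, ψ, φ, form_add_left, form_smul_left, hwi, hwj, hejw, form_ee,
        det_fin_two_of]
      field_simp; ring
  let fm : J →* Matrix (Fin 2) (Fin 2) F :=
    { toFun := fun g => M₂ g
      map_one' := hM1
      map_mul' := fun g g' => hM2 _ _ (hJG g.2).1 (hJG g'.2).1 }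
  have hfm : ∀ g : J, fm g = M₂ g := fun g => rfl
  -- vectors killed by both coordinates
  have hline : ∀ g, Fix g → ∀ u, f u v = 0 → (∀ s, f s 𝖾i = 0 → f s w = 0 → f s v = 0 → f u s = 0) →
      ∃ κ : F, ↟g *ᵥ u = ψ (↟g *ᵥ u) • 𝖾i + φ (↟g *ᵥ u) • w + κ • v := by
    intro g hg u hu horth
    set z := res (↟g *ᵥ u) with hz
    have hgu := hkeep g hg u hu
    obtain ⟨za, zb, -⟩ := hres _ hgu
    rw [← hz] at za zb
    have hperp : ∀ s, f s 𝖾i = 0 → f s w = 0 → f s v = 0 → f z s = 0 := by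
      intro s a b d
      have h1 : f (↟g *ᵥ u) s = 0 := by
        rw [show f (↟g *ᵥ u) s = f (↟g *ᵥ u) (↟g *ᵥ s) by rw [hg.2.2 s a b d], mem_spGL.1 hg.1, horth s a b d]
      rw [hz]
      simp only [res, form_sub_left, form_smul_left, h1]
      rw [form_skew s 𝖾i, form_skew s w, a, b]; ring
    have hjj : f 𝖿j v = 1 := by
      rw [hv, form_sub_right, form_smul_right, form_fe, form_fe, if_pos rfl, if_neg hji, mul_zero, sub_zero]
    refine ⟨-f z 𝖿j, ?_⟩
    have hzv : z = (-f z 𝖿j) • v := ext_form fun x => by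
      set x' := x - f x v • 𝖿j with hx'
      have hx'v : f x' v = 0 := by rw [hx', form_sub_left, form_smul_left, hjj]; ring
      obtain ⟨a, b, d⟩ := hres x' hx'v
      have h1 := hperp _ a b d
      simp only [res, hx', form_sub_right, form_smul_right, za, zb, mul_zero, sub_zero] at h1
      rw [form_smul_left, form_skew x v]
      linear_combination h1
    rw [← hzv, hz]
    simp only [res]; abel
  -- an element of `H` moving `e` along `v` fixes it
  have key : ∀ g : J, ∀ μ : F, ↟(g : G) *ᵥ 𝖾i = 𝖾i + μ • v → μ = 0 := by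
    intro g μ hg
    by_contra hμ
    set k := (g : G)
    have hkH : k ∈ H := hJH g.2
    have h1 := mul_mem (mul_mem hkH (tv_mem S (rt_single (.inl i)) (one_mem F₀))) (inv_mem hkH)
    rw [tvGL_conj (S.le hkH), hg] at h1
    have hR := fix_isR T h1 (rt_single (.inl i)) (by simp) (by
      rw [tvGL_mulVec, form_add_right, form_smul_right, form_self, hiv, mul_zero, add_zero, mul_zero, zero_smul,
        add_zero])
    have hjjc := centre_rat hR (.inl j) (.inl j)
    have hijc := centre_rat hR (.inl i) (.inl j)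
    simp [hv, hji, hji.symm] at hjjc hijc
    have hμF : μ ∈ F₀ := hsq μ hjjc
    have h2 : 1 + -(μ * lam) ∈ F₀ := by
      have := div_mem hijc hμF
      rwa [mul_div_assoc, div_self hμ, mul_one] at this
    refine hlam ?_
    have h3 := div_mem (sub_mem (one_mem F₀) h2) hμF
    rwa [show (1 - (1 + -(μ * lam))) / μ = lam by field_simp; ring] at h3
  have hfix1 : ∀ s, f s 𝖾i = 0 → f s w = 0 → f s v = 0 → f 𝖾i s = 0 := fun s a _ _ => by
    rw [form_skew, a, neg_zero]
  have hfix2 : ∀ s, f s 𝖾i = 0 → f s w = 0 → f s v = 0 → f w s = 0 := fun s _ b _ => by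
    rw [form_skew, b, neg_zero]
  have hyJ : y ∈ J := Subgroup.subset_closure (Set.mem_insert _ _)
  have hinjf : Function.Injective fm := by
    refine (injective_iff_map_eq_one fm).2 fun g hg => ?_
    obtain ⟨hF, -⟩ := hJG g.2
    set k := (g : G) with hk
    have e : ∀ a b, M₂ k a b = (1 : Matrix (Fin 2) (Fin 2) F) a b := fun a b => by rw [hk, ← hfm, hg]
    have e00 := e 0 0
    have e01 := e 0 1
    have e10 := e 1 0
    have e11 := e 1 1
    simp [M₂, -mulVec_single] at e00 e01 e10 e11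
    obtain ⟨ν, hν⟩ := hline k hF _ hiv hfix1
    obtain ⟨ν', hν'⟩ := hline k hF _ hwv hfix2
    rw [e00, e10, one_smul, zero_smul, add_zero] at hν
    rw [e01, e11, one_smul, zero_smul, zero_add] at hν'
    have hν0 := key g ν hν
    rw [hν0, zero_smul, add_zero] at hν
    -- the commutator with `y`
    have hν'0 : ν' = 0 := by
      have hμ := key ((g * ⟨y, hyJ⟩ * g⁻¹) * (⟨y, hyJ⟩)⁻¹) (c * α * ν') (by
        simp only [Subgroup.coe_mul, Subgroup.coe_inv, ← hk]
        rw [hydef, tvGL_conj (S.le (hJH g.2)), ← hk, hν', tvGL_inv, Units.val_mul, ← mulVec_mulVec]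
        simp only [tvGL_mulVec, form_add_left, form_smul_left, form_add_right, form_smul_right, form_self, hiv,
          hwv, ← hα]
        module)
      exact (mul_eq_zero.1 hμ).resolve_left (mul_ne_zero hc hα0)
    rw [hν'0, zero_smul, add_zero] at hν'
    have hhyp : ∀ x, f x v = 0 → ↟k *ᵥ x = x := fun x hx => by
      rw [hdec k hF x hx, hν, hν']
      simp only [res]; abel
    have hR := fix_isR T (hJH g.2) (rt_single (.inl i)) (by simp) hν
    refine Subtype.ext (GeoFull.gl_ext fun x => ?_)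
    rw [Subgroup.coe_one, Units.val_one, one_mulVec, ← hk]
    -- the two remaining basis vectors
    have hjj : f 𝖿j v = 1 := by
      rw [hv, form_sub_right, form_smul_right, form_fe, form_fe, if_pos rfl, if_neg hji, mul_zero, sub_zero]
    set d := ↟k *ᵥ 𝖿j - 𝖿j with hd
    have hdR : Rt F₀ d := rt_sub (hR _ (rt_single _)) (rt_single _)
    have hdperp : ∀ z, f z v = 0 → f d z = 0 := fun z hz => by
      rw [hd, form_sub_left]
      nth_rw 1 [← hhyp z hz]
      rw [mem_spGL.1 hF.1, sub_self]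
    have hdv : d = (-f d 𝖿j) • v := ext_form fun x => by
      have h1 := hdperp (x - f x v • 𝖿j) (by rw [form_sub_left, form_smul_left, hjj]; ring)
      rw [form_sub_right, form_smul_right] at h1
      rw [form_smul_left, form_skew x v]
      linear_combination h1
    have hd0 : f d 𝖿j = 0 := by
      by_contra hne
      have h1 := hdR (.inl j)
      have h2 := hdR (.inl i)
      rw [hdv] at h1 h2
      simp [hv, hji, hji.symm] at h1 h2
      have h3 := div_mem h2 h1
      refine hlam ?_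
      rwa [mul_div_cancel_left₀ _ hne] at h3
    have hfj : ↟k *ᵥ 𝖿j = 𝖿j := by
      rw [hd0, neg_zero, zero_smul, hd, sub_eq_zero] at hdv; exact hdv
    have h1 := hhyp (x - f x v • 𝖿j) (by rw [form_sub_left, form_smul_left, hjj]; ring)
    rw [mulVec_sub, mulVec_smul, hfj, sub_left_inj] at h1
    exact h1
  obtain ⟨p, hp⟩ := CharP.exists F
  haveI : Fact p.Prime := ⟨CharP.char_is_prime F p⟩
  have hq₀ : p ≤ Nat.card F₀ := by
    have h2 : Function.Injective fun a : ZMod p => (⟨ZMod.castHom (dvd_refl p) F a, by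
        rw [ZMod.castHom_apply, ZMod.cast_eq_val]; exact natCast_mem F₀ _⟩ : F₀) :=
      fun a b hab => (ZMod.castHom (dvd_refl p) F).injective (congrArg Subtype.val hab)
    simpa [Nat.card_zmod] using Nat.card_le_card_of_injective _ h2
  have hcardJ : p ^ 2 ≤ Nat.card {g : J // fm g 1 0 = 0 ∧ fm g 0 0 = 1} := by
    have hm1 : ∀ s : F₀, tvGL 𝖾i (s : F) ∈ J := fun s => Subgroup.subset_closure (Or.inr ⟨s, Or.inl rfl⟩)
    have hm2 : ∀ s : F₀, tvGL 𝖾j (s : F) ∈ J := fun s => Subgroup.subset_closure (Or.inr ⟨s, Or.inr rfl⟩)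
    have hwj : f w 𝖾j = -(lam * α) := by rw [form_skew, hejw]
    let t : F₀ × F₀ → J := fun a => ⟨_, mul_mem (hm1 a.1) (hm2 a.2)⟩
    have hprop : ∀ a, fm (t a) 1 0 = 0 ∧ fm (t a) 0 0 = 1 := fun a => by
      simp [hfm, M₂, -mulVec_single, t, ← mulVec_mulVec, tvGL_mulVec, form_ee, hψi, hφi]
    refine le_trans ?_ (Nat.card_le_card_of_injective
      (fun a => (⟨t a, hprop a⟩ : {g : J // fm g 1 0 = 0 ∧ fm g 0 0 = 1})) fun a b hab => ?_)
    · rw [Nat.card_prod, pow_two]; exact Nat.mul_le_mul hq₀ hq₀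
    · have hval : ∀ a, fm (t a) 0 1 = -α * ((a.1 : F) + (a.2 : F) * (lam * lam)) := fun a => by
        show ψ (↟(tvGL 𝖾i (a.1 : F) * tvGL 𝖾j (a.2 : F)) *ᵥ w) = _
        simp only [Units.val_mul, ← mulVec_mulVec, tvGL_mulVec, ψ, form_add_left, form_smul_left, form_self,
          hwi, hwj, hejw, form_ee, ← hα]
        field_simp; ring
      have e1 := congrArg (fun g : {g : J // fm g 1 0 = 0 ∧ fm g 0 0 = 1} => fm g.1 0 1) hab
      simp only [hval] at e1
      have e2 : ((a.1 : F) - b.1) + ((a.2 : F) - b.2) * (lam * lam) = 0 := by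
        linear_combination mul_left_cancel₀ (neg_ne_zero.2 hα0) e1
      by_cases h2 : (a.2 : F) - b.2 = 0
      · rw [h2, zero_mul, add_zero, sub_eq_zero] at e2
        exact Prod.ext (Subtype.ext e2) (Subtype.ext (sub_eq_zero.1 h2))
      · refine absurd (hsq lam ?_) hlam
        rw [show lam * lam = -((a.1 : F) - b.1) / ((a.2 : F) - b.2) by
          rw [eq_div_iff h2]; linear_combination e2]
        exact div_mem (neg_mem (sub_mem a.1.2 b.1.2)) (sub_mem a.2.2 b.2.2)
  have hylow : ∃ z, fm z 1 0 ≠ 0 := by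
    refine ⟨⟨y, hyJ⟩, ?_⟩
    simp [hfm, M₂, -mulVec_single, hydef, tvGL_mulVec, φ, form_add_left, form_smul_left, form_self, hwi, ← hα, hc, hα0]
  obtain ⟨d, hd10, hd00⟩ := CfsgLib.SubMax.exists_torus fm hinjf (fun g => (hJG g.2).2) hcardJ hylow
  -- the torus element
  obtain ⟨hF, -⟩ := hJG d.2
  set k := (d : G) with hk
  set μ := ψ (↟k *ᵥ 𝖾i) with hμ
  have h10 : φ (↟k *ᵥ 𝖾i) = 0 := hd10
  have h00 : μ ≠ 1 := hd00
  obtain ⟨ν, hν⟩ := hline k hF _ hiv hfix1
  rw [h10, zero_smul, add_zero, ← hμ] at hν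
  have hkH : k ∈ H := hJH d.2
  have hcen : ∀ z : V, f 𝖾i z = 0 → tvGL z 1 ∈ H → ∀ a b, z a * z b ∈ F₀ := fun z hz hzH a b => by
    have := centre_rat (fix_isR T hzH (rt_single (.inl i)) (by simp) (by
      rw [tvGL_mulVec, hz, mul_zero, zero_smul, add_zero])) a b
    rwa [one_mul] at this
  have hc1 := mul_mem (mul_mem hkH (tv_mem S (rt_single (.inl i)) (one_mem F₀))) (inv_mem hkH)
  have hc2 := mul_mem (mul_mem hkH (tv_mem S (rt_single (.inl j)) (one_mem F₀))) (inv_mem hkH)
  rw [tvGL_conj hF.1] at hc1 hc2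
  have hkj : ↟k *ᵥ 𝖾j = (lam * μ) • 𝖾i + (1 + lam * ν) • v := by
    rw [hej, mulVec_add, mulVec_smul, hF.2.1, hν]; module
  rw [hν] at hc1
  rw [hkj] at hc2
  have hP1 := hcen _ (by rw [form_add_right, form_smul_right, form_smul_right, form_self, hiv]; ring) hc1
  have hP2 := hcen _ (by rw [form_add_right, form_smul_right, form_smul_right, form_self, hiv]; ring) hc2
  have q1 := hP1 (.inl j) (.inl j)
  have q2 := hP2 (.inl j) (.inl j)
  have q3 := hP1 (.inl i) (.inl i)
  have q4 := hP2 (.inl i) (.inl j)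
  simp [hv, hji, hji.symm] at q1 q2 q3 q4
  have hν1 : ν ∈ F₀ := hsq ν q1
  by_cases hν0 : ν = 0
  · subst hν0
    simp at q2 q3 q4
    have hμF := hsq μ q3
    refine hlam ?_
    have h3 := div_mem q4 (sub_mem hμF (one_mem F₀))
    rwa [show (lam * μ + -lam) / (μ - 1) = lam by
      rw [div_eq_iff (sub_ne_zero.2 h00)]; ring] at h3
  · have h3 := div_mem (sub_mem (hsq _ q2) (one_mem F₀)) hν1
    rw [add_sub_cancel_left, mul_div_assoc, div_self hν0, mul_one] at h3
    exact hlam h3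

omit hr hcard in
theorem coord_of_fix {w : V} {c : F} (hy : tvGL w c ∈ H) {u : V} (hu : Rt F₀ u) (hu0 : u ≠ 0) (h : f u w = 0)
    (a b : Fin m ⊕ Fin m) : c * w a * w b ∈ F₀ :=
  centre_rat (fix_isR T hy hu hu0 (by rw [tvGL_mulVec, h, mul_zero, zero_smul, add_zero])) a b

/-- The centre of a transvection in `H` spans a rational line, with rational coefficient. -/
theorem entries_rat {w : V} {c : F} (hy : tvGL w c ∈ H) (a b : Fin m ⊕ Fin m) : c * w a * w b ∈ F₀ := by
  by_cases hc : c = 0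
  · simp [hc, zero_mem]
  by_contra hne
  refine no_generic T hr hcard hc hy fun u hu hf => ?_
  by_contra hu0
  exact hne (coord_of_fix T hy hu hu0 hf a b)

end CfsgLib.SubMaxSp
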