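import Mathlib
import Cfsg.Agent.SubMaxSp.Rigid
import Cfsg.Agent.S0752

/-!
Subfield subgroups of symplectic groups are maximal.
-/

set_option autoImplicit false

namespace CfsgLib.SubMaxSp

open Matrix CfsgLib.SpGeom CfsgLib.GeoSp

variable {F : Type*} [Field F] {m : ℕ} {F₀ : Subfield F}

local notation "V" => (Fin m ⊕ Fin m → F)
local notation "G" => GL (Fin m ⊕ Fin m) F
local notation "f" => Cfsg.sympForm m F
local notation:max "↟" g:max => ((g : GL (Fin m ⊕ Fin m) F) : Matrix (Fin m ⊕ Fin m) (Fin m ⊕ Fin m) F)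

/-- The products of coordinates of the images of all rational vectors being rational gives a rational map up to one
scalar. -/
theorem mem_subfield_of_products {g : G}
    (h : ∀ s : V, Rt F₀ s → ∀ a b, (↟g *ᵥ s) a * (↟g *ᵥ s) b ∈ F₀) [NeZero m] :
    g ∈ Cfsg.Geo.subfieldSubgroup F₀ (1 : G) := by
  classical
  let X : Fin m ⊕ Fin m → V := fun k => ↟g *ᵥ Pi.single k 1
  have hX : ∀ k a b, X k a * X k b ∈ F₀ := fun k => h _ (rt_single k)
  have hX2 : ∀ k l a b, X k a * X l b + X l a * X k b ∈ F₀ := by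
    intro k l a b
    have h1 := sub_mem (sub_mem (h _ (rt_add (rt_single k) (rt_single l)) a b) (hX k a b)) (hX l a b)
    rwa [mulVec_add, show (X k + X l) a * (X k + X l) b - X k a * X k b - X l a * X l b =
      X k a * X l b + X l a * X k b by simp only [Pi.add_apply]; ring] at h1
  have hne : ∀ k, ∃ a, X k a ≠ 0 := fun k => by
    have hk : X k ≠ 0 := fun h0 => by
      have h2 := congrArg (fun x => ↟(g⁻¹) *ᵥ x) h0
      simp only [X, GeoFull.inv_mulVec_cancel, mulVec_zero] at h2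
      simpa using congrFun h2 k
    exact Function.ne_iff.1 hk
  let k₀ : Fin m ⊕ Fin m := Sum.inl 0
  obtain ⟨a₀, ha₀⟩ := hne k₀
  set ε := X k₀ a₀
  have hall : ∀ l b, ε * X l b ∈ F₀ := by
    intro l b
    rcases eq_or_ne l k₀ with rfl | hl
    · exact hX _ a₀ b
    obtain ⟨d, hd⟩ := hne l
    -- some cross term does not vanish
    obtain ⟨t, ht⟩ : ∃ t, X k₀ a₀ * X l t + X l a₀ * X k₀ t ≠ 0 := by
      by_contra hz
      push Not at hz
      have he : X l = (-(X l a₀) / X k₀ a₀) • X k₀ := funext fun t => by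
        rw [Pi.smul_apply, smul_eq_mul, div_mul_eq_mul_div, eq_div_iff ha₀]
        linear_combination hz t
      have h2 := congrArg (fun x => ↟(g⁻¹) *ᵥ x) he
      simp only [X, mulVec_smul, GeoFull.inv_mulVec_cancel] at h2
      simpa [hl, hl.symm] using congrFun h2 l
    have hnum : (ε * ε) * (X l d * X l t) + (X l d * X l a₀) * (ε * X k₀ t) ∈ F₀ :=
      add_mem (mul_mem (hX _ _ _) (hX _ _ _)) (mul_mem (hX _ _ _) (hX _ _ _))
    have hεd : ε * X l d ∈ F₀ := by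
      have h2 := div_mem hnum (hX2 k₀ l a₀ t)
      rwa [show (ε * ε) * (X l d * X l t) + (X l d * X l a₀) * (ε * X k₀ t) =
        (ε * X l d) * (X k₀ a₀ * X l t + X l a₀ * X k₀ t) by ring, mul_div_cancel_right₀ _ ht] at h2
    have h3 := div_mem (mul_mem hεd (hX l d b)) (hX l d d)
    rwa [show ε * X l d * (X l d * X l b) / (X l d * X l d) = ε * X l b by field_simp] at h3
  refine GeoSubfield.mem_subfield ha₀ fun k j => ?_
  rw [inv_one, Units.val_one, one_mulVec, one_mulVec, Pi.smul_apply, smul_eq_mul]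
  exact hall k j

theorem not_mem_subfield [NeZero m] {a : F} (ha : a ∉ F₀) :
    tvGL (Pi.single (Sum.inl 0) 1 : V) a ∉ Cfsg.Geo.subfieldSubgroup F₀ (1 : G) := by
  intro hg
  obtain ⟨c, hc, h⟩ := GeoSubfield.exists_scalar hg
  have hrat : ∀ k, GeoSubfield.Rat' F₀ (1 : G) (Pi.single k (1 : F)) := fun k j => by
    rw [inv_one, Units.val_one, one_mulVec]; exact rt_single k j
  have h1 := h _ (hrat (.inl 0)) (.inl 0)
  have h2 := h _ (hrat (.inr 0)) (.inl 0)
  rw [inv_one, Units.val_one, one_mulVec, tvGL_mulVec] at h1 h2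
  simp [form_single_inl_right] at h1 h2
  have h3 := div_mem h2 h1
  rw [mul_div_cancel_left₀ _ hc] at h3
  exact ha h3

theorem std_maximal [Fintype F] (hm : 3 ≤ m) {r : ℕ} (hr : r.Prime) (hcard : Fintype.card F = Nat.card F₀ ^ r) :
    Cfsg.Geo.IsMaximalIn (Cfsg.spGL m F) (Cfsg.Geo.subfieldSubgroup F₀ (1 : G) ⊓ Cfsg.spGL m F) := by
  classical
  haveI : NeZero m := ⟨by omega⟩
  obtain ⟨a, ha⟩ : ∃ a : F, a ∉ F₀ := by
    by_contra hall
    push Not at hall
    have hq2 : 2 ≤ Nat.card F₀ := Finite.one_lt_card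
    have h1 : Nat.card F₀ = Fintype.card F := by
      rw [← Nat.card_eq_fintype_card]
      exact Nat.card_congr (Equiv.subtypeUnivEquiv hall)
    rw [hcard] at h1
    exact hr.ne_one (Nat.pow_right_injective hq2
      (show Nat.card F₀ ^ 1 = Nat.card F₀ ^ r by rw [pow_one]; exact h1)).symm
  refine ⟨lt_of_le_not_ge inf_le_right fun hle => not_mem_subfield ha (hle (tvGL_mem _ a)).1, fun M hGM hMS => ?_⟩
  have S : Setting M F₀ := ⟨hm, fun g hg hR => hGM ⟨isR_mem_subfield hR, hg⟩, hMS⟩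
  obtain ⟨A, hA, hA0⟩ := exists_ring S
  rcases ring_dichotomy hr hcard A hA0 with hA' | hA'
  · exact Or.inr (eq_top_case S fun a => (hA a).1 (hA' ▸ Subring.mem_top a))
  · have T : Tight M F₀ := { toSetting := S, small := fun a ha => hA' a ((hA a).2 ha) }
    refine Or.inl (le_antisymm (le_inf (fun g hg => mem_subfield_of_products fun s hs a b => ?_) hMS) hGM)
    have h1 := mul_mem (mul_mem hg (tv_mem S hs (one_mem F₀))) (inv_mem hg)
    rw [tvGL_conj (hMS hg)] at h1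
    have h2 := entries_rat T hr hcard h1 a b
    rwa [one_mul] at h2

/-- A rational basis in which the form is standard up to a scalar. -/
theorem exists_normalizer [Fintype F] {ζ : F} (hζ : ζ ≠ 0) {P : G}
    (hP : Cfsg.Geo.IsFormRationalStructure f F₀ ζ P) :
    ∃ P₀ ∈ (Matrix.GeneralLinearGroup.map (F₀.subtype : F₀ →+* F) :
        GL (Fin m ⊕ Fin m) F₀ →* G).range,
      ∀ u v, ζ * f (↟(P * P₀) *ᵥ u) (↟(P * P₀) *ᵥ v) = f u v := by
  classical
  let J : Matrix (Fin m ⊕ Fin m) (Fin m ⊕ Fin m) F := Matrix.J (Fin m) F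
  let N : Matrix (Fin m ⊕ Fin m) (Fin m ⊕ Fin m) F := ζ • ((↟P)ᵀ * J * ↟P)
  have hN : ∀ u v : V, u ⬝ᵥ (N *ᵥ v) = ζ * f (↟P *ᵥ u) (↟P *ᵥ v) := fun u v => by
    show u ⬝ᵥ (N *ᵥ v) = ζ * ((↟P *ᵥ u) ⬝ᵥ (J *ᵥ (↟P *ᵥ v)))
    simp only [N, smul_mulVec, dotProduct_smul, smul_eq_mul, ← mulVec_mulVec]
    rw [dotProduct_mulVec u (↟P)ᵀ, vecMul_transpose]
  have hNmem : ∀ a b, N a b ∈ F₀ := fun a b => by
    have h := hP _ _ (rt_single (F₀ := F₀) a) (rt_single (F₀ := F₀) b)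
    rw [← hN] at h
    simpa using h
  let N₀ : Matrix (Fin m ⊕ Fin m) (Fin m ⊕ Fin m) F₀ := fun a b => ⟨N a b, hNmem a b⟩
  have hN₀ : N₀.map F₀.subtype = N := rfl
  have hev : ∀ u v : Fin m ⊕ Fin m → F₀, F₀.subtype (u ⬝ᵥ (N₀ *ᵥ v)) =
      ζ * f (↟P *ᵥ (F₀.subtype ∘ u)) (↟P *ᵥ (F₀.subtype ∘ v)) := fun u v => by
    rw [← hN, ← hN₀, RingHom.map_dotProduct]
    congr 1
    funext k
    exact RingHom.map_mulVec _ _ _ _
  let B : LinearMap.BilinForm F₀ (Fin m ⊕ Fin m → F₀) := Matrix.toBilin' N₀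
  have hB : ∀ u v, B u v = u ⬝ᵥ (N₀ *ᵥ v) := fun u v => Matrix.toBilin'_apply' N₀ u v
  have hAlt : B.IsAlt := fun u => Subtype.ext (by
    show F₀.subtype (B u u) = 0
    rw [hB, hev, form_self, mul_zero])
  obtain ⟨m', k, b, hef, hee, hff, hrad⟩ := Cfsg.Agent.S0752.result B hAlt
  have hk : k = 0 := by
    by_contra hk
    set z := b (Sum.inr ⟨0, Nat.pos_of_ne_zero hk⟩)
    have h1 : ∀ x, f (↟P *ᵥ (F₀.subtype ∘ z)) x = 0 := by
      intro x
      have hz : (F₀.subtype ∘ z) ᵥ* N = 0 := funext fun j => by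
        have h2 := congrArg F₀.subtype (hrad ⟨0, Nat.pos_of_ne_zero hk⟩ (Pi.single j 1))
        rw [hB, hev, map_zero, ← hN, show (F₀.subtype ∘ (Pi.single j 1 : Fin m ⊕ Fin m → F₀)) = Pi.single j 1 from
          funext fun l => by rcases eq_or_ne l j with rfl | h <;> simp [*]] at h2
        rw [dotProduct_mulVec, dotProduct_single, mul_one] at h2
        exact h2
      obtain ⟨y, rfl⟩ : ∃ y, x = ↟P *ᵥ y := ⟨↟(P⁻¹) *ᵥ x, (GeoFull.mulVec_inv_cancel P x).symm⟩
      refine (mul_eq_zero.1 ?_).resolve_left hζ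
      rw [← hN, dotProduct_mulVec, hz, zero_dotProduct]
    have h0 : ↟P *ᵥ (F₀.subtype ∘ z) = 0 := ext_form fun x => by rw [h1, form_zero_left]
    have h2 := congrArg (fun x => ↟(P⁻¹) *ᵥ x) h0
    simp only [GeoFull.inv_mulVec_cancel, mulVec_zero] at h2
    exact b.ne_zero _ (funext fun j => Subtype.ext (congrFun h2 j) : z = 0)
  subst hk
  have hmm : m' = m := by
    have h1 := Module.finrank_eq_card_basis b
    simp [Module.finrank_pi] at h1
    omega
  subst m'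
  let c : Fin m ⊕ Fin m → (Fin m ⊕ Fin m → F₀) := fun k => b (Sum.inl k.swap)
  let C : Matrix (Fin m ⊕ Fin m) (Fin m ⊕ Fin m) F₀ := fun a k => c k a
  have hCv : ∀ x, C *ᵥ x = ∑ k, x k • c k := fun x => funext fun a => by
    simp [Matrix.mulVec, dotProduct, C, Finset.sum_apply, mul_comm]
  have hdet : C.det ≠ 0 := by
    intro h0
    obtain ⟨x, hx0, hx⟩ := Matrix.exists_mulVec_eq_zero_iff.2 h0
    rw [hCv] at hx
    refine hx0 (funext fun k => ?_)
    have h1 := congrArg (fun y => b.repr y (Sum.inl k.swap)) hx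
    simp only [c, map_sum, map_smul, map_zero, Finsupp.finsetSum_apply, Finsupp.smul_apply, smul_eq_mul,
      Finsupp.zero_apply, Module.Basis.repr_self] at h1
    rw [Finset.sum_eq_single k] at h1
    · simpa using h1
    · intro l _ hl
      rw [Finsupp.single_eq_of_ne, mul_zero]
      intro e
      exact hl (Function.LeftInverse.injective Sum.swap_swap (Sum.inl_injective e).symm)
    · simp
  refine ⟨Matrix.GeneralLinearGroup.map (F₀.subtype : F₀ →+* F) (GeneralLinearGroup.mkOfDetNeZero C hdet),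
    ⟨_, rfl⟩, ?_⟩
  set Q := Matrix.GeneralLinearGroup.map (F₀.subtype : F₀ →+* F) (GeneralLinearGroup.mkOfDetNeZero C hdet)
  have hQ : ∀ k, ↟Q *ᵥ Pi.single k 1 = F₀.subtype ∘ c k := fun k => by
    rw [mulVec_single_one]; rfl
  have hstd : ∀ a d : Fin m ⊕ Fin m, ζ * f (↟(P * Q) *ᵥ Pi.single a 1) (↟(P * Q) *ᵥ Pi.single d 1) =
      f (Pi.single a 1) (Pi.single d 1) := by
    intro a d
    rw [Units.val_mul, ← mulVec_mulVec, ← mulVec_mulVec, hQ, hQ, ← hev, ← hB]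
    rcases a with i | i <;> rcases d with j | j <;>
      simp only [c, Sum.swap_inl, Sum.swap_inr, form_single_inl_right, form_single_inr_right]
    · rw [hff]; simp
    · rw [show B (b (Sum.inl (Sum.inr i))) (b (Sum.inl (Sum.inl j))) = -(B (b (Sum.inl (Sum.inl j))) (b (Sum.inl (Sum.inr i)))) from
        (LinearMap.IsAlt.neg hAlt _ _).symm, hef]
      rcases eq_or_ne j i with rfl | h <;> simp [*, Ne.symm]
    · rw [hef]
      rcases eq_or_ne i j with rfl | h <;> simp [*, Ne.symm]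
    · rw [hee]; simp
  intro u v
  let L : Matrix (Fin m ⊕ Fin m) (Fin m ⊕ Fin m) F := ζ • ((↟(P * Q))ᵀ * Matrix.J (Fin m) F * ↟(P * Q))
  have hL : ∀ u v, u ⬝ᵥ (L *ᵥ v) = ζ * f (↟(P * Q) *ᵥ u) (↟(P * Q) *ᵥ v) := fun u v => by
    show u ⬝ᵥ (L *ᵥ v) = ζ * ((↟(P * Q) *ᵥ u) ⬝ᵥ (Matrix.J (Fin m) F *ᵥ (↟(P * Q) *ᵥ v)))
    simp only [L, smul_mulVec, dotProduct_smul, smul_eq_mul, ← mulVec_mulVec]
    rw [dotProduct_mulVec u (↟(P * Q))ᵀ, vecMul_transpose]
  rw [← hL, show L = Matrix.J (Fin m) F by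
    ext a d
    have h := hstd a d
    rw [← hL] at h
    simpa [Cfsg.sympForm] using h]
  rfl

theorem subfield_maximal_sp [Fintype F] (hm : 3 ≤ m) {r : ℕ} (hr : r.Prime)
    (hcard : Fintype.card F = Nat.card F₀ ^ r) {P : G} {ζ : F} (hζ : ζ ≠ 0)
    (hP : Cfsg.Geo.IsFormRationalStructure f F₀ ζ P) :
    Cfsg.Geo.IsMaximalIn (Cfsg.spGL m F) (Cfsg.Geo.subfieldSubgroup F₀ P ⊓ Cfsg.spGL m F) := by
  obtain ⟨P₀, hP₀, hsim⟩ := exists_normalizer hζ hP
  set Q := P * P₀ with hQ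
  set φ : G →* G := (MulAut.conj Q).toMonoidHom with hφ
  have hφi : Function.Injective φ := (MulAut.conj Q).injective
  set K := (Matrix.GeneralLinearGroup.map (F₀.subtype : F₀ →+* F) :
    GL (Fin m ⊕ Fin m) F₀ →* G).range ⊔ Cfsg.Geo.scalars (Fin m ⊕ Fin m) F with hK
  have h1 : Cfsg.Geo.subfieldSubgroup F₀ (1 : G) = K := by
    rw [hK, Cfsg.Geo.subfieldSubgroup, map_one]
    exact Subgroup.map_id _
  have hmap : (Cfsg.Geo.subfieldSubgroup F₀ (1 : G)).map φ = Cfsg.Geo.subfieldSubgroup F₀ P := by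
    rw [h1]
    ext g
    simp only [Cfsg.Geo.subfieldSubgroup, ← hK, Subgroup.mem_map, hφ, MulEquiv.coe_toMonoidHom, MulAut.conj_apply]
    have hPK : P₀ ∈ K := Subgroup.mem_sup_left hP₀
    constructor
    · rintro ⟨x, hx, rfl⟩
      exact ⟨P₀ * x * P₀⁻¹, mul_mem (mul_mem hPK hx) (inv_mem hPK), by rw [hQ]; group⟩
    · rintro ⟨x, hx, rfl⟩
      exact ⟨P₀⁻¹ * x * P₀, mul_mem (mul_mem (inv_mem hPK) hx) hPK, by rw [hQ]; group⟩
  have hf : ∀ u v, f u v = ζ * f (↟Q *ᵥ u) (↟Q *ᵥ v) := fun u v => (hsim u v).symm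
  have hsp : ∀ g : G, φ g ∈ Cfsg.spGL m F ↔ g ∈ Cfsg.spGL m F := by
    intro g
    rw [mem_spGL, mem_spGL]
    constructor
    · intro h u v
      have := h (↟Q *ᵥ u) (↟Q *ᵥ v)
      simp only [hφ, MulEquiv.coe_toMonoidHom, MulAut.conj_apply, Units.val_mul, ← mulVec_mulVec,
        GeoFull.inv_mulVec_cancel] at this
      rw [hf (↟g *ᵥ u), this, ← hf]
    · intro h u v
      simp only [hφ, MulEquiv.coe_toMonoidHom, MulAut.conj_apply, Units.val_mul, ← mulVec_mulVec]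
      refine mul_left_cancel₀ hζ ?_
      rw [← hf, h, hf, GeoFull.mulVec_inv_cancel, GeoFull.mulVec_inv_cancel]
  have hspmap : (Cfsg.spGL m F).map φ = Cfsg.spGL m F := by
    ext g
    rw [Subgroup.mem_map]
    exact ⟨fun ⟨x, hx, e⟩ => e ▸ (hsp x).2 hx, fun hg => ⟨Q⁻¹ * g * Q,
      (hsp _).1 (by simpa [hφ, mul_assoc] using hg), by simp [hφ, mul_assoc]⟩⟩
  have hG : Cfsg.Geo.subfieldSubgroup F₀ P ⊓ Cfsg.spGL m F =
      (Cfsg.Geo.subfieldSubgroup F₀ (1 : G) ⊓ Cfsg.spGL m F).map φ := by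
    rw [Subgroup.map_inf _ _ _ hφi, hspmap, hmap]
  obtain ⟨hlt, hmax⟩ := std_maximal (F₀ := F₀) hm hr hcard
  rw [hG]
  refine ⟨?_, fun M hGM hMS => ?_⟩
  · conv_rhs => rw [← hspmap]
    exact (Subgroup.map_lt_map_iff_of_injective hφi).2 hlt
  · have hsur : Function.Surjective φ := (MulAut.conj Q).surjective
    rcases hmax (M.comap φ) (Subgroup.map_le_iff_le_comap.1 hGM)
      (fun g hg => (hsp g).1 (hMS hg)) with h | h
    · left
      rw [← h, Subgroup.map_comap_eq_self_of_surjective hsur]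
    · right
      rw [← hspmap, ← h, Subgroup.map_comap_eq_self_of_surjective hsur]

end CfsgLib.SubMaxSp
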